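import Mathlib
import Cfsg.Prelude.Def_LieTypeDatum
import Cfsg.Agent.Classical.SimPlus
import Cfsg.Agent.OutPO.SemiConj
import Cfsg.Agent.OutPO.Parity
import Cfsg.Agent.AutPSL.Classes

/-!
The similarity group of the plus-type form: the class character in every characteristic, the field
automorphisms, and the inner-diagonal automorphisms.
-/

set_option autoImplicit false
set_option linter.unusedSectionVars false
set_option maxHeartbeats 1000000
set_option synthInstance.maxHeartbeats 400000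

namespace Cfsg.Agent.OutPO

open Matrix QuadraticMap Module
open Cfsg.Agent.AutPO (Semi semiAutM good_plus plusFrame)
open Cfsg.Agent.Classical (simAut isoGroup_le_simGroup plusQF plusQF_apply plusCoord plusScale
  diagGL_mulVec)
open Cfsg.Agent.Forms25 (TotSing)

universe u

/-- The index type of the coordinates of the plus-type space of dimension `2(k+3)`. -/
abbrev PIx (k : ℕ) : Type := Fin (k + 3) ⊕ Fin (k + 3)

/-- The similarity group of the plus-type form. -/
abbrev GOp (k : ℕ) (F : Type u) [Field F] : Subgroup (GL (PIx k) F) :=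
  Cfsg.Geo.quadSimilarityGroup (F := F) (Cfsg.quadFormPlus (k + 3) F)

variable {F : Type u} [Field F] [Finite F] {k : ℕ}

/-- An isometry as a similarity. -/
def isoIncP : ↥(Cfsg.isometryGroup F (Cfsg.quadFormPlus (k + 3) F)) →* ↥(GOp k F) :=
  Subgroup.inclusion isoGroup_le_simGroup

/-- The reference maximal totally singular subspace. -/
def baseP (k : ℕ) (F : Type u) [Field F] : Submodule F (PIx k → F) :=
  LinearMap.ker (LinearMap.funLeft F F (Sum.inr : Fin (k + 3) → PIx k))

theorem mem_baseP (v : PIx k → F) : v ∈ baseP k F ↔ ∀ i, v (.inr i) = 0 := by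
  simp [baseP, LinearMap.mem_ker, funext_iff, LinearMap.funLeft_apply]

theorem totSing_baseP : TotSing (plusQF (k + 3) F) (baseP k F) := fun v hv => by
  rw [plusQF_apply, Cfsg.quadFormPlus]
  exact Finset.sum_eq_zero fun i _ => mul_eq_zero_of_right _ ((mem_baseP v).1 hv i)

theorem finrank_baseP : finrank F ↥(baseP k F) = k + 3 := by
  have hs : Function.Surjective (LinearMap.funLeft F F (Sum.inr : Fin (k + 3) → PIx k)) :=
    LinearMap.funLeft_surjective_of_injective F F _ Sum.inr_injective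
  have h := LinearMap.finrank_range_add_finrank_ker
    (LinearMap.funLeft F F (Sum.inr : Fin (k + 3) → PIx k))
  rw [LinearMap.range_eq_top.2 hs, finrank_top, finrank_pi, finrank_pi, Fintype.card_sum,
    Fintype.card_fin] at h
  have h' : k + 3 + finrank F ↥(baseP k F) = k + 3 + (k + 3) := h
  omega

theorem hyp_plus : Hyp (plusQF (k + 3) F) (k + 3) where
  nd := ⟨fun x hx => (plusCoord (F := F) k).bNondeg_Qf x hx,
    fun y hy => (plusCoord (F := F) k).bNondeg_Qf y fun x => by rw [polar_comm]; exact hy x⟩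
  dim := by rw [finrank_fintype_fun_eq_card, Fintype.card_sum, Fintype.card_fin]; omega

theorem linOf_form (g : ↥(GOp k F)) (v : PIx k → F) :
    plusQF (k + 3) F (linOf g.1 v) =
      ((plusCoord (F := F) k).mu g : F) * plusQF (k + 3) F v := by
  rw [linOf_apply, plusQF_apply, plusQF_apply, (plusCoord (F := F) k).f_mulVec]

/-- The character recording whether the two classes of maximal totally singular subspaces are
interchanged. -/
noncomputable def pchi (k : ℕ) (F : Type u) [Field F] [Finite F] :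
    ↥(GOp k F) →* Multiplicative (ZMod 2) where
  toFun g := Multiplicative.ofAdd (linPar (k + 3) (baseP k F) (linOf g.1))
  map_one' := by
    rw [linPar_of_fix (finrank_baseP (F := F) (k := k))]
    · rfl
    · intro v hv
      rwa [linOf_apply, OneMemClass.coe_one, Units.val_one, one_mulVec]
  map_mul' g h := by
    have e : linOf (g * h).1 = (linOf h.1).trans (linOf g.1) := by
      refine LinearEquiv.ext fun v => ?_
      rw [LinearEquiv.trans_apply, linOf_apply, linOf_apply, linOf_apply, Subgroup.coe_mul,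
        Units.val_mul, ← Matrix.mulVec_mulVec]
    rw [e, linPar_mul (hyp_plus (F := F) (k := k)) (totSing_baseP (F := F) (k := k)) (finrank_baseP (F := F) (k := k)) (linOf_form g) (linOf_form h), ofAdd_add]

theorem pchi_eq_one_iff (g : ↥(GOp k F)) :
    pchi k F g = 1 ↔ linPar (k + 3) (baseP k F) (linOf g.1) = 0 :=
  ofAdd_eq_one

theorem pchi_eq_one_of_fix (g : ↥(GOp k F))
    (h : ∀ v ∈ baseP k F, (g.1 : Matrix (PIx k) (PIx k) F) *ᵥ v ∈ baseP k F) : pchi k F g = 1 :=
  (pchi_eq_one_iff g).2 (linPar_of_fix (finrank_baseP (F := F) (k := k)) h)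

theorem pchi_refl (x : PIx k → F) (hx : Cfsg.quadFormPlus (k + 3) F x ≠ 0) :
    pchi k F (isoIncP ((plusCoord (F := F) k).refl x hx)) = Multiplicative.ofAdd 1 := by
  refine congrArg Multiplicative.ofAdd (linPar_refl (hyp_plus (F := F) (k := k)) (totSing_baseP (F := F) (k := k)) (finrank_baseP (F := F) (k := k))
    (x := x) (by rw [plusQF_apply]; exact hx) fun v => ?_)
  rw [linOf_apply]
  show (((plusCoord (F := F) k).refl x hx).1 : Matrix (PIx k) (PIx k) F) *ᵥ v = _
  rw [(plusCoord (F := F) k).refl_mulVec]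
  simp only [polar, plusQF_apply]

theorem pchi_plusScale (c : Fˣ) : pchi k F (plusScale (k + 3) c) = 1 :=
  pchi_eq_one_of_fix _ fun v hv => (mem_baseP _).2 fun i => by
    show (((Classical.diagGL (PIx k) F _) : GL (PIx k) F) : Matrix (PIx k) (PIx k) F).mulVec v _ = 0
    rw [diagGL_mulVec, (mem_baseP v).1 hv i, mul_zero]

theorem pchi_scalar (g : ↥(GOp k F)) (hg : g.1 ∈ Cfsg.Geo.scalars (PIx k) F) : pchi k F g = 1 := by
  obtain ⟨c, hc⟩ := (Cfsg.Geo.mem_scalars_iff _).1 hg
  refine pchi_eq_one_of_fix _ fun v hv => ?_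
  rw [hc, Matrix.smul_mulVec, one_mulVec]
  exact Submodule.smul_mem _ _ hv

theorem exists_scale_decompP (g : ↥(GOp k F)) :
    ∃ (c : Fˣ) (o : ↥(Cfsg.isometryGroup F (Cfsg.quadFormPlus (k + 3) F))),
      g = plusScale (k + 3) c * isoIncP o := by
  set D := plusCoord (F := F) k
  have hmu : D.mu (plusScale (k + 3) (D.mu g)) = D.mu g := Units.ext (D.mu_eq_of _ fun v => by
    simp [plusScale, Cfsg.quadFormPlus, diagGL_mulVec, Finset.mul_sum, mul_assoc])
  have h1 : D.mu ((plusScale (k + 3) (D.mu g))⁻¹ * g) = 1 := by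
    rw [map_mul, map_inv, hmu, inv_mul_cancel]
  exact ⟨_, ⟨_, D.mem_iso_of_mu _ h1⟩, (mul_inv_cancel_left _ g).symm⟩

/-- Homomorphisms on the similarity group are determined by reflections and scalings. -/
theorem hom_ext_GOp {X : Type*} [Group X] (α β : ↥(GOp k F) →* X)
    (h1 : ∀ x hx, α (isoIncP ((plusCoord (F := F) k).refl x hx)) = β (isoIncP ((plusCoord (F := F) k).refl x hx)))
    (h2 : ∀ c, α (plusScale (k + 3) c) = β (plusScale (k + 3) c)) : α = β := by
  refine MonoidHom.ext fun g => ?_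
  obtain ⟨c, o, rfl⟩ := exists_scale_decompP g
  rw [map_mul, map_mul, h2]
  exact congrArg (β _ * ·)
    (DFunLike.congr_fun (hom_ext_refl (plusCoord (F := F) k) (α.comp isoIncP) (β.comp isoIncP) h1) o)

theorem preserves_iff_pchi (g : ↥(GOp k F)) :
    Cfsg.PreservesSingularClasses (Cfsg.quadFormPlus (k + 3) F)
      ((g.1 : GL (PIx k) F) : Matrix (PIx k) (PIx k) F) ↔ pchi k F g = 1 := by
  rw [pchi_eq_one_iff]
  exact preserves_iff_linPar (plusQF (k + 3) F) (plusQF_apply _) (hyp_plus (F := F) (k := k)) (totSing_baseP (F := F) (k := k))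
    (finrank_baseP (F := F) (k := k)) (linOf g.1) ((plusCoord (F := F) k).mu g).ne_zero (linOf_form g) _ fun v => rfl

theorem isInnDiagPlus_iff (β : MulAut (Cfsg.POmega F (Cfsg.quadFormPlus (k + 3) F))) :
    Cfsg.IsInnerDiagonalAutPOmegaPlus (k + 3) β ↔
      ∃ g ∈ (pchi k F).ker, β = simAut g := by
  constructor
  · rintro ⟨g, hg, hp, h⟩
    exact ⟨⟨g, hg⟩, (preserves_iff_pchi ⟨g, hg⟩).1 hp, (Classical.isInduced_iff ⟨g, hg⟩ β).1 h⟩
  · rintro ⟨g, hg, rfl⟩
    exact ⟨g.1, g.2, (preserves_iff_pchi g).2 hg, (Classical.isInduced_iff g _).2 rfl⟩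

theorem inndiagPlus_eq :
    Cfsg.inndiagPOmegaPlus (k + 3) F = (pchi k F).ker.map simAut :=
  Classical.autSubgroupOf_eq_map _ _ isInnDiagPlus_iff

theorem compat_plus (σ : F ≃+* F) : Compat (Cfsg.quadFormPlus (k + 3) F) σ := fun v => by
  simp [Cfsg.quadFormPlus, map_sum]

/-- The field automorphisms. -/
noncomputable def phiP (k : ℕ) (F : Type u) [Field F] [Finite F] :
    (F ≃+* F) →* MulAut (Cfsg.POmega F (Cfsg.quadFormPlus (k + 3) F)) where
  toFun σ := fieldAutOf (plusQF (k + 3) F) (plusQF_apply _) σ (compat_plus σ)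
  map_one' := fieldAutOf_one _ _
  map_mul' σ τ := fieldAutOf_mul _ _ σ τ (compat_plus σ) (compat_plus τ)

/-- The Galois action on the similarity group. -/
noncomputable def pConj (k : ℕ) (σ : F ≃+* F) : ↥(GOp k F) →* ↥(GOp k F) :=
  simMap σ (compat_plus σ)

theorem pConj_coe (σ : F ≃+* F) (g : ↥(GOp k F)) :
    (pConj k σ g).1 = GeneralLinearGroup.map σ.toRingHom g.1 := rfl

theorem phiP_mul_simAut (σ : F ≃+* F) (g : ↥(GOp k F)) :
    phiP k F σ * simAut g = simAut (pConj k σ g) * phiP k F σ :=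
  fieldAutOf_mul_simAut _ _ σ (compat_plus σ) g

theorem simAut_mulP (g h : ↥(GOp k F)) : simAut (g * h) = simAut g * simAut h :=
  MonoidHom.map_mul _ g h

theorem simAut_invP (g : ↥(GOp k F)) : simAut g⁻¹ = (simAut g)⁻¹ :=
  MonoidHom.map_inv _ g

theorem pConj_refl (σ : F ≃+* F) (x : PIx k → F) (hx : Cfsg.quadFormPlus (k + 3) F x ≠ 0) :
    ∃ hx', pConj k σ (isoIncP ((plusCoord (F := F) k).refl x hx)) =
      isoIncP ((plusCoord (F := F) k).refl (fun i => σ (x i)) hx') := by
  have hx' : Cfsg.quadFormPlus (k + 3) F (fun i => σ (x i)) ≠ 0 := by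
    rw [compat_plus σ x]
    exact (map_ne_zero _).2 hx
  refine ⟨hx', Subtype.ext (gl_ext fun v => ?_)⟩
  obtain ⟨w, rfl⟩ : ∃ w : PIx k → F, (fun i => σ (w i)) = v :=
    ⟨fun i => σ.symm (v i), funext fun i => σ.apply_symm_apply _⟩
  rw [pConj_coe, map_mulVec_comp]
  show _ = (((plusCoord (F := F) k).refl _ hx').1 : Matrix (PIx k) (PIx k) F) *ᵥ _
  rw [show ((isoIncP ((plusCoord (F := F) k).refl x hx)).1 : GL (PIx k) F) =
    ((plusCoord (F := F) k).refl x hx).1 from rfl, (plusCoord (F := F) k).refl_mulVec, (plusCoord (F := F) k).refl_mulVec]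
  funext i
  have e : (fun i => σ (x i)) + (fun i => σ (w i)) = fun i => σ ((x + w) i) :=
    funext fun i => (map_add σ _ _).symm
  simp only [polar, e, compat_plus σ (x + w), compat_plus σ x, compat_plus σ w, Pi.sub_apply,
    Pi.smul_apply, smul_eq_mul, map_sub, map_mul, map_inv₀]

theorem pConj_scale (σ : F ≃+* F) (c : Fˣ) :
    pConj k σ (plusScale (k + 3) c) =
      plusScale (k + 3) (Units.map σ.toRingHom.toMonoidHom c) := by
  refine Subtype.ext (gl_ext fun v => ?_)
  obtain ⟨w, rfl⟩ : ∃ w : PIx k → F, (fun i => σ (w i)) = v :=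
    ⟨fun i => σ.symm (v i), funext fun i => σ.apply_symm_apply _⟩
  rw [pConj_coe, map_mulVec_comp]
  funext i
  show σ (_ : F) = _
  simp only [plusScale, diagGL_mulVec, map_mul]
  rcases i with i | i <;> simp

theorem pchi_pConj (σ : F ≃+* F) (g : ↥(GOp k F)) : pchi k F (pConj k σ g) = pchi k F g :=
  DFunLike.congr_fun (hom_ext_GOp ((pchi k F).comp (pConj k σ)) (pchi k F)
    (fun x hx => by
      obtain ⟨hx', h⟩ := pConj_refl σ x hx
      rw [MonoidHom.comp_apply, h, pchi_refl, pchi_refl])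
    fun c => by rw [MonoidHom.comp_apply, pConj_scale, pchi_plusScale, pchi_plusScale]) g

theorem exists_decomp_plus (hk : 2 ≤ k)
    (β : MulAut (Cfsg.POmega F (Cfsg.quadFormPlus (k + 3) F))) :
    ∃ (g : ↥(GOp k F)) (σ : F ≃+* F), β = simAut g * phiP k F σ :=
  exists_decomp (plusQF (k + 3) F) (plusQF_apply _) (good_plus (by omega)) (plusFrame _) (by omega)
    compat_plus β

theorem simAut_phiP_eq_one (hk : 2 ≤ k) (g : ↥(GOp k F)) (σ : F ≃+* F)
    (h : simAut g * phiP k F σ = 1) : σ = 1 ∧ g.1 ∈ Cfsg.Geo.scalars (PIx k) F :=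
  sim_field_eq_one (plusQF (k + 3) F) (plusQF_apply _) (good_plus (by omega)) g σ (compat_plus σ) h

theorem simAut_ker_iff_plus (hk : 2 ≤ k) (g : ↥(GOp k F)) :
    simAut g = 1 ↔ g.1 ∈ Cfsg.Geo.scalars (PIx k) F :=
  simAut_eq_one_iff' (plusQF (k + 3) F) (plusQF_apply _) (good_plus (by omega)) g

theorem phiP_injective (hk : 2 ≤ k) : Function.Injective (phiP k F) :=
  (injective_iff_map_eq_one _).2 fun σ h =>
    (simAut_phiP_eq_one hk 1 σ (by rw [map_one, one_mul, h])).1

theorem pchi_eq_of_simAut_eq (hk : 2 ≤ k) {g h : ↥(GOp k F)} (e : simAut g = simAut h) :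
    pchi k F g = pchi k F h := by
  have h1 : simAut (h⁻¹ * g) = 1 := by rw [simAut_mulP, simAut_invP, e, inv_mul_cancel]
  have := pchi_scalar _ ((simAut_ker_iff_plus hk (h⁻¹ * g)).1 h1)
  rwa [map_mul, map_inv, inv_mul_eq_one, eq_comm] at this

theorem mem_inndiagPlus_iff (hk : 2 ≤ k) (g : ↥(GOp k F)) (σ : F ≃+* F) :
    simAut g * phiP k F σ ∈ Cfsg.inndiagPOmegaPlus (k + 3) F ↔ σ = 1 ∧ pchi k F g = 1 := by
  rw [inndiagPlus_eq]
  constructor
  · rintro ⟨d, hd, e⟩
    have h1 : simAut (d⁻¹ * g) * phiP k F σ = 1 := by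
      rw [simAut_mulP, simAut_invP, mul_assoc, e, inv_mul_cancel]
    obtain ⟨hσ, hs⟩ := simAut_phiP_eq_one hk _ σ h1
    refine ⟨hσ, ?_⟩
    have := pchi_scalar _ hs
    rw [map_mul, map_inv, (MonoidHom.mem_ker).1 hd, inv_one, one_mul] at this
    exact this
  · rintro ⟨rfl, hg⟩
    exact ⟨g, hg, by rw [map_one, mul_one]⟩

set_option maxHeartbeats 4000000 in
theorem inndiagPlus_normal (hk : 2 ≤ k) : (Cfsg.inndiagPOmegaPlus (k + 3) F).Normal := by
  rw [inndiagPlus_eq]
  refine ⟨?_⟩
  rintro _ ⟨e, he, rfl⟩ β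
  obtain ⟨g, σ, rfl⟩ := exists_decomp_plus hk β
  refine ⟨g * pConj k σ e * g⁻¹, ?_, ?_⟩
  · rw [SetLike.mem_coe, MonoidHom.mem_ker, map_mul, map_mul, map_inv, pchi_pConj,
      (MonoidHom.mem_ker).1 he, mul_one, mul_inv_cancel]
  · rw [simAut_mulP (g * pConj k σ e) g⁻¹, simAut_mulP g (pConj k σ e), simAut_invP g,
      _root_.mul_inv_rev]
    calc simAut g * simAut (pConj k σ e) * (simAut g)⁻¹
        = simAut g * (simAut (pConj k σ e) * phiP k F σ) * ((phiP k F σ)⁻¹ * (simAut g)⁻¹) := by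
          group
      _ = _ := by rw [← phiP_mul_simAut]; group

end Cfsg.Agent.OutPO
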