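import Mathlib
import Cfsg.Agent.OutPO.PlusBase

/-!
Inner automorphisms inside the inner-diagonal automorphisms of the plus-type group.
-/

set_option autoImplicit false
set_option linter.unusedSectionVars false
set_option maxHeartbeats 1000000
set_option synthInstance.maxHeartbeats 400000

namespace Cfsg.Agent.OutPO

open Matrix QuadraticMap
open Cfsg.Agent.Classical (simAut plusCoord plusQF plusQF_apply)

universe u

variable {F : Type u} [Field F] [Finite F] {k : ℕ}

theorem pchi_omega {s : ↥(Cfsg.isometryGroup F (Cfsg.quadFormPlus (k + 3) F))}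
    (hs : s ∈ Cfsg.Omega F (Cfsg.quadFormPlus (k + 3) F)) : pchi k F (isoIncP s) = 1 :=
  Abelianization.commutator_subset_ker ((pchi k F).comp isoIncP) hs

theorem simAut_isoIncP (t : ↥(Cfsg.Omega F (Cfsg.quadFormPlus (k + 3) F))) :
    simAut (isoIncP t.1) =
      MulAut.conj (QuotientGroup.mk t : Cfsg.POmega F (Cfsg.quadFormPlus (k + 3) F)) := by
  refine MulEquiv.ext fun x => ?_
  obtain ⟨s, rfl⟩ := QuotientGroup.mk_surjective x
  rw [Classical.simAut_mk, MulAut.conj_apply, ← QuotientGroup.mk_mul, ← QuotientGroup.mk_inv,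
    ← QuotientGroup.mk_mul]
  congr 1

theorem simAut_isoIncP_mem_inn {t : ↥(Cfsg.isometryGroup F (Cfsg.quadFormPlus (k + 3) F))}
    (ht : t ∈ Cfsg.Omega F (Cfsg.quadFormPlus (k + 3) F)) :
    simAut (isoIncP t) ∈ Cfsg.Inn (Cfsg.POmega F (Cfsg.quadFormPlus (k + 3) F)) := by
  rw [Classical.inn_eq]
  exact Subgroup.mem_map_of_mem _ (Subgroup.mem_map_of_mem _ ht)

theorem conj_eq_one_plus (hk : 2 ≤ k) (x : Cfsg.POmega F (Cfsg.quadFormPlus (k + 3) F))
    (hx : MulAut.conj x = 1) : x = 1 := by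
  obtain ⟨s, rfl⟩ := QuotientGroup.mk_surjective x
  rw [← simAut_isoIncP, simAut_ker_iff_plus hk] at hx
  obtain ⟨c, hc⟩ := (Cfsg.Geo.mem_scalars_iff _).1 hx
  refine (QuotientGroup.eq_one_iff s).2 (Subgroup.mem_center_iff.2 fun t => ?_)
  refine Subtype.ext (Subtype.ext (Units.ext ?_))
  show (t.1.1 : Matrix (PIx k) (PIx k) F) * s.1.1 = s.1.1 * t.1.1
  rw [show ((s.1.1 : GL (PIx k) F) : Matrix (PIx k) (PIx k) F) = (c : F) • 1 from hc,
    Matrix.mul_smul, Matrix.mul_one, Matrix.smul_mul, Matrix.one_mul]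

theorem inn_le_inndiagPlus : Cfsg.Inn (Cfsg.POmega F (Cfsg.quadFormPlus (k + 3) F)) ≤
    Cfsg.inndiagPOmegaPlus (k + 3) F := by
  rw [Classical.inn_eq, inndiagPlus_eq]
  refine Subgroup.map_mono ?_
  rintro _ ⟨s, hs, rfl⟩
  exact pchi_omega hs

theorem iso_ker_pchi_eq_omega [CharP F 2] :
    ((pchi k F).comp isoIncP).ker = Cfsg.Omega F (Cfsg.quadFormPlus (k + 3) F) := by
  set D := plusCoord (F := F) k with hD
  symm
  refine Subgroup.eq_of_le_of_card_ge (fun s hs => pchi_omega hs) ?_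
  have hO : Nat.card ↥(Cfsg.isometryGroup F (Cfsg.quadFormPlus (k + 3) F)) =
      2 * Nat.card ↥(Cfsg.Omega F (Cfsg.quadFormPlus (k + 3) F)) := by
    rw [Nat.card_congr D.Θ.toEquiv, Classical.EQ_index_two D.nondeg D.pairs D.gen,
      ← D.map_omega, Subgroup.card_map_of_injective D.Θ.injective]
  have h2 := ((pchi k F).comp isoIncP).ker.card_mul_index
  set x : PIx k → F := Pi.single (.inl 0) 1 + Pi.single (.inr 0) 1
  have hx : Cfsg.quadFormPlus (k + 3) F x ≠ 0 := by
    simp [x, Cfsg.quadFormPlus, Pi.single_apply]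
  have hi : ((pchi k F).comp isoIncP).ker.index = 2 := by
    rw [Subgroup.index_ker, MonoidHom.range_eq_top.2, Subgroup.card_top]
    · simp
    · intro y
      have hy : y = 1 ∨ y = Multiplicative.ofAdd 1 := by revert y; decide
      rcases hy with rfl | rfl
      · exact ⟨1, map_one _⟩
      · exact ⟨_, pchi_refl x hx⟩
  rw [hi, hO] at h2
  omega

theorem inndiagPlus_eq_inn_char_two [CharP F 2] :
    Cfsg.inndiagPOmegaPlus (k + 3) F = Cfsg.Inn (Cfsg.POmega F (Cfsg.quadFormPlus (k + 3) F)) := by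
  refine le_antisymm ?_ inn_le_inndiagPlus
  rw [inndiagPlus_eq, Classical.inn_eq]
  rintro _ ⟨g, hg, rfl⟩
  set D := plusCoord (F := F) k with hD
  haveI := Fintype.ofFinite F
  obtain ⟨t, ht⟩ := FiniteField.isSquare_of_char_two (ringChar.eq F 2) (D.mu g : F)
  have ht0 : t ≠ 0 := by rintro rfl; rw [mul_zero] at ht; exact (D.mu g).ne_zero ht
  set c : Fˣ := Units.mk0 t ht0
  have hmu : D.mu ((D.scal c)⁻¹ * g) = 1 := by
    rw [map_mul, map_inv, D.mu_scal, inv_mul_eq_one]
    exact Units.ext ht.symm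
  set o : ↥(Cfsg.isometryGroup F (Cfsg.quadFormPlus (k + 3) F)) := ⟨_, D.mem_iso_of_mu _ hmu⟩
  have ho : isoIncP o = (D.scal c)⁻¹ * g := rfl
  have hchi : pchi k F (isoIncP o) = 1 := by
    rw [ho, map_mul, map_inv, pchi_scalar _ (D.scal_mem c), (MonoidHom.mem_ker).1 hg, inv_one,
      one_mul]
  have hmem : o ∈ Cfsg.Omega F (Cfsg.quadFormPlus (k + 3) F) := by
    rw [← iso_ker_pchi_eq_omega]; exact hchi
  refine ⟨isoIncP o, ⟨o, hmem, rfl⟩, ?_⟩
  rw [ho, simAut_mulP, simAut_invP, D.simAut_scal, inv_one, one_mul]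

/-- In odd characteristic the class character is the sign. -/
theorem ker_pchi_eq_dsign (hodd : Odd (Nat.card F)) :
    (pchi k F).ker = ((plusCoord (F := F) k).dsign (k + 3)).ker := by
  set D := plusCoord (F := F) k with hD
  refine Subgroup.ext fun g => ?_
  rw [MonoidHom.mem_ker, MonoidHom.mem_ker, ← preserves_iff_pchi g]
  have h := Classical.preservesSingularClasses_iff (n := k + 3) (plusQF (k + 3) F)
    D.bNondeg_Qf (Classical.two_ne_zero_of_odd hodd)
    (LinearEquiv.refl F (PIx k → F)) (fun v => (plusQF_apply _ v).symm)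
    (D.mu g).ne_zero g.1.isUnit (fun v => by rw [plusQF_apply, plusQF_apply, D.f_mulVec])
  rw [show (⇑(plusQF (k + 3) F) : _ → F) = Cfsg.quadFormPlus (k + 3) F from
    funext (plusQF_apply _)] at h
  rw [h]
  show _ ↔ GeneralLinearGroup.det g.1 * (D.mu g ^ (k + 3))⁻¹ = 1
  rw [mul_inv_eq_one, Units.ext_iff, GeneralLinearGroup.val_det_apply, Units.val_pow_eq_pow_val]

end Cfsg.Agent.OutPO
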