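import Mathlib
import Cfsg.Agent.OutPO.PlusInn
import Cfsg.Agent.OutPO.MinusModel

/-!
Semisimilarities of prime order of the plus-type space: every one is conjugate to `v ↦ σ(v)` or, for
`σ` an involution, to `v ↦ swap(σ(v))`; conjugacy in the field-type cosets.
-/

set_option autoImplicit false
set_option linter.unusedSectionVars false
set_option maxHeartbeats 1000000
set_option synthInstance.maxHeartbeats 400000

namespace Cfsg.Agent.OutPO

open Matrix QuadraticMap Module
open Cfsg.Agent.AutPO (Semi semiAutM good_plus plusFrame)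
open Cfsg.Agent.AutPSL (twistNorm orderOf_pos_field orderOf_dist fixedField)
open Cfsg.Agent.Classical (simAut BNondeg binQF plusQF plusQF_apply minusQF minusQF_apply plusCoord)
open Cfsg.Agent.Forms25 (TotSing)

universe u v

variable {F : Type u} [Field F] [Finite F] {k : ℕ}

/-! ### The swap -/

/-- The vector `e₀ - f₀`. -/
def swapVec (k : ℕ) (F : Type u) [Field F] : PIx k → F :=
  Pi.single (.inl 0) 1 - Pi.single (.inr 0) 1

theorem quad_swapVec : Cfsg.quadFormPlus (k + 3) F (swapVec k F) = -1 := by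
  simp [swapVec, Cfsg.quadFormPlus, Pi.single_apply]

theorem swapVec_ne : Cfsg.quadFormPlus (k + 3) F (swapVec k F) ≠ 0 := by
  rw [quad_swapVec]; exact neg_ne_zero.2 one_ne_zero

/-- The reflection interchanging the first hyperbolic pair. -/
noncomputable def swapP (k : ℕ) (F : Type u) [Field F] [Finite F] : ↥(GOp k F) :=
  isoIncP ((plusCoord (F := F) k).refl (swapVec k F) swapVec_ne)

/-- The coordinates with the first pair interchanged. -/
def swapIdx (k : ℕ) : PIx k ≃ PIx k := Equiv.swap (.inl 0) (.inr 0)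

theorem swapP_mulVec (v : PIx k → F) :
    ((swapP k F).1 : Matrix (PIx k) (PIx k) F) *ᵥ v = fun i => v (swapIdx k i) := by
  show (((plusCoord (F := F) k).refl (swapVec k F) swapVec_ne).1 : Matrix (PIx k) (PIx k) F) *ᵥ v = _
  rw [(plusCoord (F := F) k).refl_mulVec, quad_swapVec]
  have hp : polar (Cfsg.quadFormPlus (k + 3) F) (swapVec k F) v = v (.inr 0) - v (.inl 0) := by
    simp [polar, swapVec, Cfsg.quadFormPlus, add_mul, mul_add, Finset.sum_add_distrib,
      Pi.single_apply]
    ring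
  rw [hp]
  funext i
  rcases i with i | i <;> refine Fin.cases ?_ (fun j => ?_) i
  · simp [swapVec, swapIdx]
  · simp [swapVec, swapIdx, Equiv.swap_apply_of_ne_of_ne]
  · simp [swapVec, swapIdx]
  · simp [swapVec, swapIdx, Equiv.swap_apply_of_ne_of_ne]

theorem pchi_swapP : pchi k F (swapP k F) = Multiplicative.ofAdd 1 :=
  pchi_refl _ swapVec_ne

theorem swapP_mul_self : swapP k F * swapP k F = 1 := by
  rw [swapP, ← map_mul, (plusCoord (F := F) k).refl_mul_self, map_one]

theorem pConj_swapP (σ : F ≃+* F) : pConj k σ (swapP k F) = swapP k F := by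
  refine Subtype.ext (gl_ext fun v => ?_)
  obtain ⟨w, rfl⟩ : ∃ w : PIx k → F, (fun i => σ (w i)) = v :=
    ⟨fun i => σ.symm (v i), funext fun i => σ.apply_symm_apply _⟩
  rw [pConj_coe, map_mulVec_comp, swapP_mulVec, swapP_mulVec]

/-- The representatives: `1` and the swap. -/
noncomputable def repP (k : ℕ) (F : Type u) [Field F] [Finite F] (ε : Multiplicative (ZMod 2)) :
    ↥(GOp k F) := if ε = 1 then 1 else swapP k F

theorem pchi_repP (ε : Multiplicative (ZMod 2)) : pchi k F (repP k F ε) = ε := by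
  unfold repP
  split_ifs with h
  · rw [map_one, h]
  · rw [pchi_swapP]
    revert h; revert ε; decide

theorem pConj_repP (σ : F ≃+* F) (ε : Multiplicative (ZMod 2)) :
    pConj k σ (repP k F ε) = repP k F ε := by
  unfold repP
  split_ifs
  · exact map_one _
  · exact pConj_swapP σ

theorem repP_comm_swapP (ε : Multiplicative (ZMod 2)) :
    repP k F ε * swapP k F = swapP k F * repP k F ε := by
  unfold repP
  split_ifs
  · rw [one_mul, mul_one]
  · rfl

/-! ### Normalisation -/

theorem pConj_eq_semiConj (σ : F ≃+* F) (g : ↥(GOp k F)) :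
    semiConj (plusQF (k + 3) F) (plusQF_apply _) (fieldSemi _ (plusQF_apply _) σ (compat_plus σ)) g =
      pConj k σ g :=
  semiConj_eq _ _ _ _ _ fun v => by rw [fieldSemi_L, pConj_coe, map_mulVec_comp, fieldSemi_L]

theorem pConj_scal (σ : F ≃+* F) (c : Fˣ) :
    pConj k σ ((plusCoord (F := F) k).scal c) =
      (plusCoord (F := F) k).scal (Units.map σ.toRingHom.toMonoidHom c) :=
  Subtype.ext (Units.ext (Matrix.ext fun i j => by
    show σ (Matrix.diagonal (fun _ => (c : F)) i j) = Matrix.diagonal (fun _ => σ (c : F)) i j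
    by_cases h : i = j <;> simp [h]))

theorem scal_mulVec_p (c : Fˣ) (v : PIx k → F) :
    (((plusCoord (F := F) k).scal c).1 : Matrix (PIx k) (PIx k) F) *ᵥ v = (c : F) • v := by
  rw [(plusCoord (F := F) k).scal_val, Matrix.smul_mulVec, one_mulVec]

theorem scal_commP (c : Fˣ) (g : ↥(GOp k F)) :
    (plusCoord (F := F) k).scal c * g = g * (plusCoord (F := F) k).scal c :=
  Subtype.ext (gl_ext fun v => by
    rw [Subgroup.coe_mul, Subgroup.coe_mul, Units.val_mul, Units.val_mul, ← Matrix.mulVec_mulVec,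
      ← Matrix.mulVec_mulVec, scal_mulVec_p, scal_mulVec_p, Matrix.mulVec_smul])

theorem twistNorm_scal (σ : F ≃+* F) (c : Fˣ) (d : ↥(GOp k F)) (n : ℕ) :
    twistNorm (pConj k σ) ((plusCoord (F := F) k).scal c * d) n =
      (plusCoord (F := F) k).scal (twistNorm (Units.map σ.toRingHom.toMonoidHom) c n) *
        twistNorm (pConj k σ) d n := by
  set D := plusCoord (F := F) k
  have hscal : ∀ x y, D.scal x * D.scal y = D.scal (x * y) := fun x y =>
    Subtype.ext (map_mul (GeneralLinearGroup.scalar (PIx k)) x y).symm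
  induction n with
  | zero =>
    have : D.scal 1 = 1 := Subtype.ext (map_one _)
    show (1 : ↥(GOp k F)) = D.scal 1 * 1
    rw [this, one_mul]
  | succ n ih =>
    show D.scal c * d * pConj k σ _ = D.scal (c * Units.map σ.toRingHom.toMonoidHom _) *
      (d * pConj k σ _)
    rw [ih, map_mul, pConj_scal, ← hscal, mul_assoc (D.scal c) d, ← mul_assoc d,
      ← scal_commP _ d, mul_assoc (D.scal _) d, ← mul_assoc (D.scal c)]

theorem simAut_phiP_pow (σ : F ≃+* F) (d : ↥(GOp k F)) (n : ℕ) :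
    (simAut d * phiP k F σ) ^ n = simAut (twistNorm (pConj k σ) d n) * phiP k F σ ^ n :=
  AutPSL.twistNorm_apply simAut (phiP k F σ) (pConj k σ) (fun g => phiP_mul_simAut σ g) d n

/-- The scalar may be chosen so that the twisted norm is one. -/
theorem exists_norm_one (hk : 2 ≤ k) {σ : F ≃+* F} {r : ℕ} (hσ : orderOf σ = r) (d : ↥(GOp k F))
    (h : (simAut d * phiP k F σ) ^ r = 1) :
    ∃ c : Fˣ, twistNorm (pConj k σ) ((plusCoord (F := F) k).scal c * d) r = 1 := by
  set D := plusCoord (F := F) k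
  have hr : 0 < r := hσ ▸ orderOf_pos_field σ
  have hσr : σ ^ r = 1 := hσ ▸ pow_orderOf_eq_one σ
  rw [simAut_phiP_pow, ← map_pow, hσr] at h
  obtain ⟨-, hs⟩ := simAut_phiP_eq_one hk _ 1 h
  obtain ⟨lam, hlam⟩ := hs
  set S := semiComp (simSemi (plusQF (k + 3) F) (plusQF_apply _) d)
    (fieldSemi (plusQF (k + 3) F) (plusQF_apply _) σ (compat_plus σ)) with hS
  have hSL : ∀ v, S.L v = (d.1 : Matrix (PIx k) (PIx k) F) *ᵥ fun i => σ (v i) := fun v => rfl
  have hiter : ∀ v, S.L^[r] v = (lam : F) • v := fun v => by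
    have hnorm : ∀ n : ℕ, (twistNorm (pConj k σ) d n).1 =
        twistNorm (GeneralLinearGroup.map σ.toRingHom) d.1 n := by
      intro n
      induction n with
      | zero => rfl
      | succ n ih =>
        show (d * pConj k σ (twistNorm (pConj k σ) d n)).1 = d.1 * _
        rw [Subgroup.coe_mul, pConj_coe, ih]
    rw [iterate_eq_matrix _ S (D := d.1) hSL r v]
    show ((twistNorm (GeneralLinearGroup.map σ.toRingHom) d.1 r : GL (PIx k) F) :
      Matrix (PIx k) (PIx k) F) *ᵥ (fun i => (σ ^ r) (v i)) = _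
    rw [← hnorm, hσr, ← hlam]
    show Matrix.scalar (PIx k) (lam : F) *ᵥ v = _
    rw [Matrix.scalar_apply, ← smul_one_eq_diagonal, Matrix.smul_mulVec, one_mulVec]
  have hfix : σ lam = lam := by
    set v₀ := swapVec k F
    have h1 : S.L (S.L^[r] v₀) = S.L^[r] (S.L v₀) := by
      rw [← Function.iterate_succ_apply, Function.iterate_succ_apply']
    rw [hiter, hiter, S.smul] at h1
    have hne : S.L v₀ ≠ 0 := by
      rw [ne_eq, map_eq_zero_iff _ S.L.injective]
      intro h0
      have := congrFun h0 (.inl 0)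
      simp [v₀, swapVec] at this
    exact smul_left_injective F hne h1
  obtain ⟨c, hc⟩ := AutPSL.exists_norm_eq σ (r := r) hr hσr (orderOf_dist σ hσ) (c := lam⁻¹)
    (by rw [Units.val_inv_eq_inv_val, map_inv₀, hfix])
  refine ⟨c, ?_⟩
  rw [twistNorm_scal, hc, show twistNorm (pConj k σ) d r = D.scal lam from Subtype.ext hlam.symm,
    show D.scal lam⁻¹ * D.scal lam = D.scal (lam⁻¹ * lam) from
      Subtype.ext (map_mul (GeneralLinearGroup.scalar (PIx k)) _ _).symm, inv_mul_cancel]
  exact Subtype.ext (map_one _)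

/-! ### Canonical representatives -/

theorem pchi_twistNorm (σ : F ≃+* F) (d : ↥(GOp k F)) (n : ℕ) :
    pchi k F (twistNorm (pConj k σ) d n) = pchi k F d ^ n := by
  induction n with
  | zero => rw [pow_zero]; exact map_one _
  | succ n ih =>
    show pchi k F (d * pConj k σ _) = _
    rw [map_mul, pchi_pConj, ih, pow_succ']

/-- The fixed field of an involution has index two. -/
theorem finrank_fixed {σ : F ≃+* F} (hσ : orderOf σ = 2) {F₀ : Type v} [Field F₀] [Algebra F₀ F]
    (he : ∀ x : F, σ x = x ↔ ∃ y, algebraMap F₀ F y = x) : Module.finrank F₀ F = 2 := by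
  haveI : Finite F₀ := Finite.of_injective _ (algebraMap F₀ F).injective
  haveI : Module.Finite F₀ F := Module.Finite.of_finite
  have hcard : Nat.card F₀ = Nat.card ↥(fixedField σ) :=
    Nat.card_congr ((Equiv.ofInjective _ (algebraMap F₀ F).injective).trans
      (Equiv.setCongr (Set.ext fun x => (he x).symm)))
  have h : Nat.card F = Nat.card F₀ ^ Module.finrank F₀ F := Module.natCard_eq_pow_finrank
  rw [AutPSL.card_fixedField_pow σ, hσ, ← hcard] at h
  exact (Nat.pow_right_injective (Finite.one_lt_card (α := F₀)) h).symm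

theorem galois_root {F₀ : Type v} [Field F₀] [Algebra F₀ F] [Finite F₀] {σ : F ≃+* F}
    (he : ∀ x : F, σ x = x ↔ ∃ y, algebraMap F₀ F y = x) {a b : F₀} {ω : F}
    (hroot : ω * ω - algebraMap F₀ F a * ω + algebraMap F₀ F b = 0)
    (hA : (binQF a b).Anisotropic) : σ ω = algebraMap F₀ F a - ω := by
  have h1 := congrArg σ hroot
  rw [map_add, map_sub, map_mul, map_mul, map_zero, (he _).2 ⟨a, rfl⟩, (he _).2 ⟨b, rfl⟩] at h1
  rcases mul_eq_zero.1 (show (σ ω - ω) * (σ ω - (algebraMap F₀ F a - ω)) = 0 by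
    linear_combination h1 - hroot) with h | h
  · exfalso
    obtain ⟨x, hx⟩ := (he ω).1 (sub_eq_zero.1 h)
    have h2 : x * x - a * x + b = 0 := (algebraMap F₀ F).injective (by
      rw [map_add, map_sub, map_mul, map_mul, map_zero, hx, hroot])
    have := congrFun (hA ![x, -1] (by
      rw [Classical.binQF_apply]
      simp
      linear_combination h2)) 1
    simp at this
  · exact sub_eq_zero.1 h

/-! ### Twisted hyperbolic coordinates -/

variable {j : ℕ} {F₀ : Type u} [Field F₀] [Finite F₀] [Algebra F₀ F] {a b : F₀} {ω : F}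

/-- The minus-type coordinates, made hyperbolic. -/
noncomputable def hypP (j : ℕ) (E₀ : QExt a b ω) : (MIx j → F) ≃ₗ[F] (PIx (j + 1) → F) :=
  hypCoordK E₀

theorem hypP_spec (E₀ : QExt a b ω) (v : MIx j → F) :
    Cfsg.quadFormPlus (j + 1 + 3) F (hypP j E₀ v) =
      Cfsg.quadFormMinus (j + 3) F (algebraMap F₀ F a) (algebraMap F₀ F b) v := by
  rw [← minusQF_apply]
  exact hypCoordK_spec E₀ v

theorem hypP_sigma (E₀ : QExt a b ω) {σ : F ≃+* F}
    (he : ∀ x : F, σ x = x ↔ ∃ y, algebraMap F₀ F y = x)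
    (hω : σ ω = algebraMap F₀ F a - ω) (v : MIx j → F) :
    (fun i => σ (hypP j E₀ v i)) =
      ((swapP (j + 1) F).1 : Matrix (PIx (j + 1)) (PIx (j + 1)) F) *ᵥ
        hypP j E₀ (fun i => σ (v i)) := by
  have ha : σ (algebraMap F₀ F a) = algebraMap F₀ F a := (he _).2 ⟨a, rfl⟩
  rw [swapP_mulVec]
  funext i
  rcases i with i | i <;> refine Fin.cases ?_ (fun t => ?_) i
  · simp only [swapIdx, Equiv.swap_apply_left]
    simp only [hypP, hypCoordK, LinearEquiv.coe_mk, LinearMap.coe_mk, AddHom.coe_mk, Sum.elim_inl,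
      Sum.elim_inr]
    show σ (v (.inr 0) + (algebraMap F₀ F a - ω) * v (.inr 1)) =
      σ (v (.inr 0)) + ω * σ (v (.inr 1))
    rw [map_add, map_mul, map_sub, hω, ha, sub_sub_cancel]
  · rw [swapIdx, Equiv.swap_apply_of_ne_of_ne (by simp) (by simp)]
    simp only [hypP, hypCoordK, LinearEquiv.coe_mk, LinearMap.coe_mk, AddHom.coe_mk, Sum.elim_inl,
      Sum.elim_inr, Fin.cons_succ]
  · simp only [swapIdx, Equiv.swap_apply_right]
    simp only [hypP, hypCoordK, LinearEquiv.coe_mk, LinearMap.coe_mk, AddHom.coe_mk, Sum.elim_inl,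
      Sum.elim_inr]
    show σ (v (.inr 0) + ω * v (.inr 1)) =
      σ (v (.inr 0)) + (algebraMap F₀ F a - ω) * σ (v (.inr 1))
    rw [map_add, map_mul, hω]
  · rw [swapIdx, Equiv.swap_apply_of_ne_of_ne (by simp) (by simp)]
    simp only [hypP, hypCoordK, LinearEquiv.coe_mk, LinearMap.coe_mk, AddHom.coe_mk, Sum.elim_inl,
      Sum.elim_inr, Fin.cons_succ]

/-- Rational coordinates of a semisimilarity `v ↦ D σ(v)` of twisted norm one. -/
theorem exists_rational_coords {σ : F ≃+* F} {r : ℕ} (hσ : orderOf σ = r) (D : ↥(GOp k F))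
    (hN : twistNorm (pConj k σ) D r = 1) {F₀ : Type v} [Field F₀] (e : F₀ →+* F)
    (he : ∀ x : F, σ x = x ↔ ∃ y, e y = x) :
    ∃ (h : GL (PIx k) F) (ν : Fˣ) (Q₀ : QuadraticForm F₀ (PIx k → F₀)),
      D.1 = h * (GeneralLinearGroup.map σ.toRingHom h)⁻¹ ∧ Forms.NonsingOn Q₀ ⊤ ∧
      ∀ w, Cfsg.quadFormPlus (k + 3) F ((h : Matrix (PIx k) (PIx k) F) *ᵥ incV e w) =
        (ν : F) * e (Q₀ w) := by
  set P := plusCoord (F := F) k with hP
  have hr : 0 < r := hσ ▸ orderOf_pos_field σ
  have hσr : σ ^ r = 1 := hσ ▸ pow_orderOf_eq_one σ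
  have hnorm : ∀ n : ℕ, (twistNorm (pConj k σ) D n).1 =
      twistNorm (GeneralLinearGroup.map σ.toRingHom) D.1 n := by
    intro n
    induction n with
    | zero => rfl
    | succ n ih =>
      show (D * pConj k σ (twistNorm (pConj k σ) D n)).1 = D.1 * _
      rw [Subgroup.coe_mul, pConj_coe, ih]
  obtain ⟨h, hh⟩ := exists_descent_gen σ hr hσr (orderOf_dist σ hσ) D.1
    (by rw [← hnorm, hN]; rfl)
  have hμσ : ∀ g : ↥(GOp k F), P.mu (pConj k σ g) = Units.map σ.toRingHom.toMonoidHom (P.mu g) :=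
    fun g => Units.ext (P.mu_eq_of _ fun v => by
      obtain ⟨w, rfl⟩ : ∃ w : PIx k → F, (fun i => σ (w i)) = v :=
        ⟨fun i => σ.symm (v i), funext fun i => σ.apply_symm_apply _⟩
      rw [pConj_coe, map_mulVec_comp, compat_plus σ, compat_plus σ, P.f_mulVec, map_mul]
      rfl)
  have hμN : ∀ n, P.mu (twistNorm (pConj k σ) D n) =
      twistNorm (Units.map σ.toRingHom.toMonoidHom) (P.mu D) n := by
    intro n
    induction n with
    | zero => exact map_one _
    | succ n ih =>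
      show P.mu (D * pConj k σ _) = P.mu D * _
      rw [map_mul, hμσ, ih]
  obtain ⟨ν, hν⟩ := exists_hilbert90 σ hσ (P.mu D) (by rw [← hμN, hN, map_one])
  let R : QuadraticForm F (PIx k → F) :=
    ((ν : F)⁻¹) • (plusQF (k + 3) F).comp (Matrix.toLin' (h : Matrix (PIx k) (PIx k) F))
  have hR : ∀ v, R v = (ν : F)⁻¹ *
      Cfsg.quadFormPlus (k + 3) F ((h : Matrix (PIx k) (PIx k) F) *ᵥ v) := fun v => by
    rw [QuadraticMap.smul_apply, QuadraticMap.comp_apply, Matrix.toLin'_apply, plusQF_apply,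
      smul_eq_mul]
  have hL : ∀ v, (D.1 : Matrix (PIx k) (PIx k) F) *ᵥ
      (fun i => σ (((h : Matrix (PIx k) (PIx k) F) *ᵥ v) i)) =
      (h : Matrix (PIx k) (PIx k) F) *ᵥ fun i => σ (v i) := fun v => by
    rw [← map_mulVec_comp, Matrix.mulVec_mulVec, ← Units.val_mul, hh, inv_mul_cancel_right]
  have hRσ : ∀ v, R (fun i => σ (v i)) = σ (R v) := fun v => by
    rw [hR, hR, ← hL, P.f_mulVec, compat_plus σ, map_mul, map_inv₀]
    have h1 := ν.ne_zero
    have h2 : σ (ν : F) ≠ 0 := (map_ne_zero _).2 h1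
    field_simp
    linear_combination σ (Cfsg.quadFormPlus (k + 3) F ((h : Matrix (PIx k) (PIx k) F) *ᵥ v)) * hν
  obtain ⟨Q₀, hQ₀, hnd₀⟩ := exists_rational_form e he R hRσ
  have hnd : BNondeg R := by
    intro x hx
    have h2 : (h : Matrix (PIx k) (PIx k) F) *ᵥ x = 0 := P.bNondeg_Qf _ fun y => by
      have h3 := hx (((h⁻¹ : GL (PIx k) F) : Matrix (PIx k) (PIx k) F) *ᵥ y)
      simp only [polar, hR, Matrix.mulVec_add, ← Matrix.mulVec_mulVec y, ← Units.val_mul,
        mul_inv_cancel, Units.val_one, one_mulVec, Matrix.mulVec_mulVec, ← mul_sub,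
        mul_eq_zero, inv_eq_zero, Units.ne_zero, false_or] at h3
      simp only [polar, P.hQf]
      exact h3
    calc x = ((h⁻¹ : GL (PIx k) F) : Matrix (PIx k) (PIx k) F) *ᵥ
          ((h : Matrix (PIx k) (PIx k) F) *ᵥ x) := by
          rw [Matrix.mulVec_mulVec, ← Units.val_mul, inv_mul_cancel, Units.val_one, one_mulVec]
      _ = 0 := by rw [h2, Matrix.mulVec_zero]
  refine ⟨h, ν, Q₀, hh, fun x _ hx _ => hnd₀ hnd x fun y => hx y trivial, fun w => ?_⟩
  rw [hQ₀, hR, mul_inv_cancel_left₀ ν.ne_zero]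

set_option maxHeartbeats 4000000 in
/-- The canonical representatives. -/
theorem exists_canonical {σ : F ≃+* F} {r : ℕ} (hr : r.Prime) (hσ : orderOf σ = r)
    (D : ↥(GOp (j + 1) F)) (hN : twistNorm (pConj (j + 1) σ) D r = 1) :
    ∃ (ε : Multiplicative (ZMod 2)) (M : ↥(GOp (j + 1) F)),
      D = M * repP (j + 1) F ε * (pConj (j + 1) σ M)⁻¹ := by
  set e : ↥(fixedField σ) →+* F := algebraMap ↥(fixedField σ) F with hedef
  have he : ∀ x : F, σ x = x ↔ ∃ y, e y = x :=
    fun x => ⟨fun hx => ⟨⟨x, hx⟩, rfl⟩, by rintro ⟨y, rfl⟩; exact y.2⟩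
  obtain ⟨h, ν, Q₀, hh, hns, hfh⟩ := exists_rational_coords hσ D hN e he
  obtain ⟨m', hcases⟩ := Forms.exists_finite_witt_decomposition Q₀ hns
  rw [Module.finrank_pi, show Fintype.card (PIx (j + 1)) = 2 * (j + 4) by simp; ring] at hcases
  rcases hcases with ⟨hd, E, hE⟩ | ⟨hd, -⟩ | ⟨hd, a₀, b₀, hA₀, E, hE⟩
  · -- split rational form
    obtain rfl : m' = j + 1 + 3 := by omega
    let N : GL (PIx (j + 1)) ↥(fixedField σ) := glOf E.symm
    set M : GL (PIx (j + 1)) F := h * GeneralLinearGroup.map e N with hM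
    have hMf : ∀ v, Cfsg.quadFormPlus (j + 1 + 3) F ((M : Matrix (PIx (j + 1)) (PIx (j + 1)) F) *ᵥ v) =
        (ν : F) * Cfsg.quadFormPlus (j + 1 + 3) F v := by
      have hc : (plusQF (j + 1 + 3) F).comp (Matrix.toLin' (M : Matrix (PIx (j + 1)) (PIx (j + 1)) F)) =
          (ν : F) • plusQF (j + 1 + 3) F := qf_ext_rational e fun w => by
        rw [QuadraticMap.comp_apply, QuadraticMap.smul_apply, Matrix.toLin'_apply, plusQF_apply,
          plusQF_apply, smul_eq_mul, hM, Units.val_mul, ← Matrix.mulVec_mulVec, map_mulVec_inc, hfh,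
          glOf_mulVec, hE, E.apply_symm_apply]
        simp [Cfsg.quadFormPlus, map_sum, incV]
      intro v
      have := DFunLike.congr_fun hc v
      rwa [QuadraticMap.comp_apply, QuadraticMap.smul_apply, Matrix.toLin'_apply, plusQF_apply,
        plusQF_apply, smul_eq_mul] at this
    refine ⟨1, ⟨M, ν, hMf⟩, Subtype.ext ?_⟩
    rw [repP, if_pos rfl, mul_one, Subgroup.coe_mul, Subgroup.coe_inv, pConj_coe, hh]
    show _ = M * (GeneralLinearGroup.map σ.toRingHom M)⁻¹
    rw [hM, map_mul, map_map_of_fixed e he, _root_.mul_inv_rev, mul_assoc h,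
      mul_inv_cancel_left]
  · omega
  obtain rfl : m' = j + 3 := by omega
  let N : (MIx j → ↥(fixedField σ)) →ₗ[↥(fixedField σ)] (PIx (j + 1) → ↥(fixedField σ)) :=
    E.symm.toLinearMap
  let NF : (MIx j → F) →ₗ[F] (PIx (j + 1) → F) :=
    Matrix.toLin' ((LinearMap.toMatrix' N).map e)
  have hNF : ∀ w, NF (incV e w) = incV e (E.symm w) := fun w => by
    funext i
    rw [Matrix.toLin'_apply]
    show ((LinearMap.toMatrix' N).map e *ᵥ (e ∘ w)) i = _
    rw [← RingHom.map_mulVec, LinearMap.toMatrix'_mulVec]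
    rfl
  have hNσ : ∀ v, (fun i => σ (NF v i)) = NF fun i => σ (v i) := fun v => by
    funext i
    simp only [NF, Matrix.toLin'_apply, Matrix.mulVec, dotProduct, map_sum, map_mul, Matrix.map_apply]
    exact Finset.sum_congr rfl fun t _ => by rw [(he _).2 ⟨_, rfl⟩]
  let NB : (PIx (j + 1) → F) →ₗ[F] (MIx j → F) :=
    Matrix.toLin' ((LinearMap.toMatrix' E.toLinearMap).map e)
  have hNN : ∀ v, NB (NF v) = v := by
    intro v
    simp only [NB, NF, Matrix.toLin'_apply, Matrix.mulVec_mulVec, ← Matrix.map_mul,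
      ← LinearMap.toMatrix'_comp]
    rw [show E.toLinearMap ∘ₗ N = LinearMap.id from LinearMap.ext fun w => E.apply_symm_apply w,
      LinearMap.toMatrix'_id, Matrix.map_one _ (map_zero _) (map_one _), one_mulVec]
  have hNinj : Function.Injective NF := Function.LeftInverse.injective hNN
  have hmod : ∀ v, Cfsg.quadFormPlus (j + 1 + 3) F ((h : Matrix (PIx (j + 1)) (PIx (j + 1)) F) *ᵥ NF v) =
      (ν : F) * Cfsg.quadFormMinus (j + 3) F (e a₀) (e b₀) v := by
    have hc : (plusQF (j + 1 + 3) F).comp ((Matrix.toLin' (h : Matrix (PIx (j + 1)) (PIx (j + 1)) F)).comp NF) =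
        (ν : F) • minusQF (j + 3) (e a₀) (e b₀) := qf_ext_rational e fun w => by
      rw [QuadraticMap.comp_apply, QuadraticMap.smul_apply, LinearMap.comp_apply,
        Matrix.toLin'_apply, plusQF_apply, minusQF_apply, smul_eq_mul, hNF, hfh, hE,
        E.apply_symm_apply, minus_incV']
    intro v
    have := DFunLike.congr_fun hc v
    rwa [QuadraticMap.comp_apply, QuadraticMap.smul_apply, LinearMap.comp_apply,
      Matrix.toLin'_apply, plusQF_apply, minusQF_apply, smul_eq_mul] at this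
  rcases hr.eq_two_or_odd' with h2 | hodd
  swap
  · -- in odd degree the minus form stays anisotropic
    exfalso
    have hA := aniso_ext e he (hσ ▸ hodd) hA₀
    let ℓ : (MIx j → F) ≃ₗ[F] (PIx (j + 1) → F) := (LinearMap.linearEquivOfInjective NF hNinj (by
      rw [finrank_fintype_fun_eq_card, finrank_fintype_fun_eq_card]; simp; ring)).trans (linOf h)
    have hℓ : ∀ v, ℓ v = (h : Matrix (PIx (j + 1)) (PIx (j + 1)) F) *ᵥ NF v := fun v => rfl
    have := Forms.finrank_le_of_vanishes_quadFormMinus (a := e a₀) (b := e b₀)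
      (fun z₁ z₂ hz => by
        have h0 := hA ![z₁, z₂] (by rw [Classical.binQF_apply]; simpa using hz)
        exact ⟨congrFun h0 0, congrFun h0 1⟩) ((baseP (j + 1) F).map ℓ.symm.toLinearMap) (by
      rintro _ ⟨x, hx, rfl⟩
      have h3 := totSing_baseP x hx
      rw [plusQF_apply, ← ℓ.apply_symm_apply x, hℓ, hmod] at h3
      exact (mul_eq_zero.1 h3).resolve_left ν.ne_zero)
    rw [LinearEquiv.finrank_map_eq, finrank_baseP] at this
    omega
  -- degree two: hyperbolic over `F`
  subst h2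
  obtain ⟨ω, E₀⟩ := exists_qext_root (K := F) (F := ↥(fixedField σ)) (a := a₀) (b := b₀)
    (Classical.anisotropic_binQF hA₀) (finrank_fixed hσ he)
  have hω : σ ω = e a₀ - ω := galois_root he E₀.root E₀.aniso
  set S := swapP (j + 1) F with hS
  let ℓ : (PIx (j + 1) → F) ≃ₗ[F] (PIx (j + 1) → F) := (hypP j E₀).symm.trans
    ((LinearMap.linearEquivOfInjective NF hNinj (by
      rw [finrank_fintype_fun_eq_card, finrank_fintype_fun_eq_card]; simp; ring)).trans (linOf h))
  have hℓ : ∀ v, ℓ (hypP j E₀ v) = (h : Matrix (PIx (j + 1)) (PIx (j + 1)) F) *ᵥ NF v := fun v => by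
    simp only [ℓ, LinearEquiv.trans_apply, LinearEquiv.symm_apply_apply]
    rfl
  have hMmem : glOf ℓ ∈ GOp (j + 1) F := by
    refine ⟨ν, fun w => ?_⟩
    obtain ⟨v, rfl⟩ := (hypP j E₀).surjective w
    rw [glOf_mulVec, hℓ, hmod, hypP_spec]
  refine ⟨Multiplicative.ofAdd 1, ⟨glOf ℓ, hMmem⟩, ?_⟩
  rw [repP, if_neg (by decide), eq_mul_inv_iff_mul_eq]
  refine Subtype.ext (gl_ext fun u => ?_)
  obtain ⟨w, rfl⟩ : ∃ w : PIx (j + 1) → F, (fun i => σ (w i)) = u :=
    ⟨fun i => σ.symm (u i), funext fun i => σ.apply_symm_apply _⟩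
  obtain ⟨v, rfl⟩ := (hypP j E₀).surjective w
  rw [Subgroup.coe_mul, Subgroup.coe_mul, Units.val_mul, Units.val_mul, ← Matrix.mulVec_mulVec,
    ← Matrix.mulVec_mulVec, pConj_coe, map_mulVec_comp, glOf_mulVec, glOf_mulVec,
    hypP_sigma E₀ he hω, Matrix.mulVec_mulVec, ← Units.val_mul,
    ← Subgroup.coe_mul, swapP_mul_self, OneMemClass.coe_one, Units.val_one, one_mulVec, hℓ, hℓ, hh,
    Units.val_mul, ← Matrix.mulVec_mulVec, ← hNσ]
  congr 1
  rw [← map_mulVec_comp, Matrix.mulVec_mulVec, ← Units.val_mul, inv_mul_cancel, Units.val_one,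
    one_mulVec]

end Cfsg.Agent.OutPO
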