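import Mathlib
import Cfsg.Agent.OutPO.PlusField

/-!
Field and graph-field classes of `PΩ⁺_{2m}(F)`: normal forms in the automorphism group and conjugacy
of the elements of prime order in their cosets.
-/

set_option autoImplicit false
set_option linter.unusedSectionVars false
set_option maxHeartbeats 1000000
set_option synthInstance.maxHeartbeats 400000

namespace Cfsg.Agent.OutPO

open Matrix QuadraticMap
open Cfsg.Agent.AutPSL (twistNorm)
open Cfsg.Agent.Classical (simAut plusQF plusQF_apply plusCoord)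

universe u

variable {F : Type u} [Field F] [Finite F] {k : ℕ}

theorem conj_formulaP (g d : ↥(GOp k F)) (ρ σ : F ≃+* F) :
    simAut g * phiP k F ρ * (simAut d * phiP k F σ) * (simAut g * phiP k F ρ)⁻¹ =
      simAut (g * pConj k ρ d * (pConj k σ g)⁻¹) * phiP k F σ := by
  rw [simAut_mulP (g * pConj k ρ d) (pConj k σ g)⁻¹, simAut_mulP g (pConj k ρ d),
    simAut_invP (pConj k σ g)]
  have h1 := phiP_mul_simAut ρ d
  have h2 := phiP_mul_simAut σ g
  have h3 : phiP k F ρ * phiP k F σ = phiP k F σ * phiP k F ρ := by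
    rw [← MonoidHom.map_mul, ← MonoidHom.map_mul, ringAut_commute]
  calc simAut g * phiP k F ρ * (simAut d * phiP k F σ) * (simAut g * phiP k F ρ)⁻¹
      = simAut g * (phiP k F ρ * simAut d) * phiP k F σ * (phiP k F ρ)⁻¹ * (simAut g)⁻¹ := by group
    _ = simAut g * simAut (pConj k ρ d) * (phiP k F ρ * phiP k F σ) * (phiP k F ρ)⁻¹ *
          (simAut g)⁻¹ := by rw [h1]; group
    _ = simAut g * simAut (pConj k ρ d) * (simAut (pConj k σ g))⁻¹ *
          (simAut (pConj k σ g) * phiP k F σ) * (simAut g)⁻¹ := by rw [h3]; group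
    _ = _ := by rw [← h2]; group

theorem multZMod2_eq (ε δ : Multiplicative (ZMod 2)) (h : ε ≠ 1) (h' : δ ≠ 1) : ε = δ := by
  revert ε δ; decide

theorem form_of_conj (hk : 2 ≤ k) {x α : MulAut (Cfsg.POmega F (Cfsg.quadFormPlus (k + 3) F))}
    {d : ↥(GOp k F)} {σ : F ≃+* F} (h : α * x * α⁻¹ = simAut d * phiP k F σ) :
    ∃ d' : ↥(GOp k F), x = simAut d' * phiP k F σ ∧ pchi k F d' = pchi k F d := by
  obtain ⟨g, ρ, hg⟩ := exists_decomp_plus hk α⁻¹
  refine ⟨g * pConj k ρ d * (pConj k σ g)⁻¹, ?_, ?_⟩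
  · calc x = α⁻¹ * (α * x * α⁻¹) * α⁻¹⁻¹ := by group
      _ = _ := by rw [h, hg, conj_formulaP]
  · rw [map_mul, map_mul, map_inv, pchi_pConj, pchi_pConj, mul_comm (pchi k F g), mul_inv_cancel_right]

theorem form_of_field (hk : 2 ≤ k) {x : MulAut (Cfsg.POmega F (Cfsg.quadFormPlus (k + 3) F))}
    (hx : Cfsg.IsFieldAutClassPOmega (Cfsg.quadFormPlus (k + 3) F) x) :
    ∃ (d : ↥(GOp k F)) (σ : F ≃+* F), σ ≠ 1 ∧ x = simAut d * phiP k F σ ∧ pchi k F d = 1 := by
  obtain ⟨α, φ, σ, hσ, hφ, h⟩ := hx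
  have hφ' : φ = phiP k F σ :=
    (isFieldAutOf_iff (plusQF (k + 3) F) (plusQF_apply _) σ (compat_plus σ) φ).1 hφ
  obtain ⟨d, hd, hp⟩ := form_of_conj hk (d := 1) (σ := σ) (h.trans (by rw [map_one, one_mul, hφ']))
  exact ⟨d, σ, hσ, hd, hp.trans (map_one _)⟩

theorem form_of_graphField (hk : 2 ≤ k) {x : MulAut (Cfsg.POmega F (Cfsg.quadFormPlus (k + 3) F))}
    (hx : Cfsg.IsGraphFieldAutClassPOmegaPlus (k + 3) x) :
    ∃ (d : ↥(GOp k F)) (σ : F ≃+* F), σ ≠ 1 ∧ x = simAut d * phiP k F σ ∧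
      pchi k F d = Multiplicative.ofAdd 1 := by
  obtain ⟨α, γ, φ, σ, v, r, hσ, hv, -, hr, hγ, hφ, h⟩ := hx
  have hr' : r = ((plusCoord (F := F) k).refl v hv).1 := Units.ext (by
    rw [hr]
    show _ = Cfsg.reflectionMatrix ⇑(plusCoord (F := F) k).Qf v
    rw [show (⇑(plusCoord (F := F) k).Qf : (PIx k → F) → F) = Cfsg.quadFormPlus (k + 3) F from
      funext (plusCoord (F := F) k).hQf])
  set R : ↥(GOp k F) := isoIncP ((plusCoord (F := F) k).refl v hv) with hR
  subst hr'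
  have hγ' : γ = simAut R := (Classical.isInduced_iff R γ).1 hγ
  have hφ' : φ = phiP k F σ :=
    (isFieldAutOf_iff (plusQF (k + 3) F) (plusQF_apply _) σ (compat_plus σ) φ).1 hφ
  obtain ⟨d, hd, hp⟩ := form_of_conj hk (d := R) (σ := σ) (h.trans (by rw [hφ', hγ']))
  exact ⟨d, σ, hσ, hd, hp.trans (pchi_refl v hv)⟩

theorem orderOf_field_of_pow (hk : 2 ≤ k) {d : ↥(GOp k F)} {σ : F ≃+* F} {r : ℕ} (hr : r.Prime)
    (hσ : σ ≠ 1) (h : (simAut d * phiP k F σ) ^ r = 1) : orderOf σ = r := by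
  haveI : Fact r.Prime := ⟨hr⟩
  rw [simAut_phiP_pow, ← MonoidHom.map_pow] at h
  exact orderOf_eq_prime (simAut_phiP_eq_one hk _ _ h).1 hσ

set_option maxHeartbeats 4000000 in
/-- An element of prime order outside `Inndiag` is conjugate under `Inndiag` to the representative. -/
theorem conj_to_rep {j : ℕ} (hk : 2 ≤ j + 1) {σ : F ≃+* F} {r : ℕ} (hr : r.Prime)
    (hσ : orderOf σ = r) (d : ↥(GOp (j + 1) F))
    (h : (simAut d * phiP (j + 1) F σ) ^ r = 1) :
    ∃ M : ↥(GOp (j + 1) F), pchi (j + 1) F M = 1 ∧ simAut d * phiP (j + 1) F σ =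
      simAut M * (simAut (repP (j + 1) F (pchi (j + 1) F d)) * phiP (j + 1) F σ) *
        (simAut M)⁻¹ := by
  obtain ⟨c, hc⟩ := exists_norm_one hk hσ d h
  obtain ⟨ε, M, hM⟩ := exists_canonical hr hσ _ hc
  set S := (plusCoord (F := F) (j + 1)).scal c with hS
  have hSs : S.1 ∈ Cfsg.Geo.scalars (PIx (j + 1)) F := ⟨c, rfl⟩
  have hε : ε = pchi (j + 1) F d := by
    have h1 := congrArg (pchi (j + 1) F) hM
    rw [map_mul, map_mul, map_mul, map_inv, pchi_scalar _ hSs, one_mul, pchi_pConj, pchi_repP,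
      mul_comm (pchi (j + 1) F M), mul_inv_cancel_right] at h1
    exact h1.symm
  subst hε
  set R := repP (j + 1) F (pchi (j + 1) F d) with hR
  have hd : simAut d = simAut (S * d) := by
    rw [simAut_mulP, Classical.simAut_eq_one_of_scalar S hSs, one_mul]
  have main : ∀ N : ↥(GOp (j + 1) F), S * d = N * R * (pConj (j + 1) σ N)⁻¹ →
      simAut d * phiP (j + 1) F σ = simAut N * (simAut R * phiP (j + 1) F σ) * (simAut N)⁻¹ := by
    intro N hN
    have h1 := conj_formulaP N R 1 σ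
    rw [MonoidHom.map_one, mul_one, show pConj (j + 1) (1 : F ≃+* F) R = R from pConj_repP 1 _,
      ← hN] at h1
    rw [h1, hd]
  by_cases hM1 : pchi (j + 1) F M = 1
  · exact ⟨M, hM1, main M hM⟩
  · refine ⟨M * swapP (j + 1) F, ?_, main _ ?_⟩
    · rw [map_mul, pchi_swapP, multZMod2_eq _ (Multiplicative.ofAdd 1) hM1 (by decide)]
      decide
    · rw [hM, map_mul, pConj_swapP, mul_assoc M (swapP (j + 1) F), ← repP_comm_swapP,
        _root_.mul_inv_rev, mul_assoc, mul_assoc, mul_assoc, ← mul_assoc (swapP (j + 1) F),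
        mul_inv_cancel, one_mul]

/-- Conjugacy of the elements of order `r` in the coset of `Inndiag`. -/
theorem coset_conjugacy_plus {j : ℕ} (hk : 2 ≤ j + 1) {σ : F ≃+* F} {r : ℕ} (hr : r.Prime)
    (hσ : σ ≠ 1) (d e : ↥(GOp (j + 1) F)) (he : pchi (j + 1) F e = 1)
    (hord : orderOf (simAut d * phiP (j + 1) F σ) = r) :
    orderOf (simAut e * (simAut d * phiP (j + 1) F σ)) = r ↔
      Cfsg.IsConjUnder (Cfsg.inndiagPOmegaPlus (j + 1 + 3) F) (simAut d * phiP (j + 1) F σ)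
        (simAut e * (simAut d * phiP (j + 1) F σ)) := by
  constructor
  · intro h
    have hx : (simAut d * phiP (j + 1) F σ) ^ r = 1 := hord ▸ pow_orderOf_eq_one _
    have hy : (simAut (e * d) * phiP (j + 1) F σ) ^ r = 1 := by
      rw [simAut_mulP, mul_assoc]
      exact h ▸ pow_orderOf_eq_one _
    have hσr := orderOf_field_of_pow hk hr hσ hx
    obtain ⟨M, hM, eM⟩ := conj_to_rep hk hr hσr d hx
    obtain ⟨N, hN, eN⟩ := conj_to_rep hk hr hσr (e * d) hy
    rw [show pchi (j + 1) F (e * d) = pchi (j + 1) F d by rw [map_mul, he, one_mul]] at eN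
    refine ⟨simAut (N * M⁻¹), ?_, ?_⟩
    · rw [inndiagPlus_eq]
      exact Subgroup.mem_map_of_mem _ (by
        rw [MonoidHom.mem_ker, map_mul, map_inv, hM, hN, inv_one, one_mul])
    · rw [← mul_assoc (simAut e), ← simAut_mulP, eN, eM, simAut_mulP N M⁻¹, simAut_invP M]
      group
  · rintro ⟨w, -, hw⟩
    rw [hw, AutPSL.orderOf_conj_eq, hord]

end Cfsg.Agent.OutPO
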