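import Mathlib
import Cfsg.Agent.Chev.Classical.D4
import Cfsg.Agent.S1082
import Cfsg.Agent.POPlus.D4Out
import Cfsg.Agent.OutPO.PlusInn

/-!
In dimension eight the inner-diagonal automorphisms of `PΩ⁺` are the diagonal automorphisms of the
Chevalley group of type `D₄`, and hence form a normal subgroup of all automorphisms.
-/

set_option autoImplicit false
set_option linter.unusedSectionVars false
set_option maxHeartbeats 1000000
set_option synthInstance.maxHeartbeats 400000

namespace Cfsg.Agent.OutPO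

open Matrix
open Cfsg.Lie
open Cfsg.Agent.Classical (simAut simAut_mk plusCoord diagGL diagGL_mulVec)
open Cfsg.Agent.Chev.Classical (repD4 repD4_ok rootMat d4Idx form_D4)
open Cfsg.Agent.ChevGrp (Rules RootTable)
open Cfsg.Agent.KSG.Aut (gSys diagOf dOut)

universe u

variable {F : Type u} [Field F] [Finite F]

local notation "POE" => Cfsg.POmega F (Cfsg.quadFormPlus 4 F)

/-- An isomorphism with known values on root elements. -/
theorem exists_iso_D4 (hS : Rules chevD4 F) :
    ∃ e : ↥(chevD4.group F) ≃* POE, ∀ r < chevD4.nroots, ∀ t : F,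
      ∃ s : ↥(Cfsg.Omega F (Cfsg.quadFormPlus 4 F)),
        e ((gSys hS).x r t) = QuotientGroup.mk s ∧
        ∀ v, ((s.1.1 : GL (Fin 4 ⊕ Fin 4) F) : Matrix (Fin 4 ⊕ Fin 4) (Fin 4 ⊕ Fin 4) F) *ᵥ v =
          (rootMat repD4 r t *ᵥ (v ∘ d4Idx.symm)) ∘ d4Idx := by
  classical
  have hP := ChevGrp.perfectData_D4 F
  obtain ⟨ψ, hψ⟩ := Chev.Classical.exists_hom repD4_ok hS d4Idx (Cfsg.quadFormPlus 4 F) form_D4
  have hperf := CentralExt.Cover.perfect hS hP
  have hmem : ∀ d, ψ d ∈ Cfsg.Omega F (Cfsg.quadFormPlus 4 F) := by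
    intro d
    have : d ∈ commutator (chevD4.SteinbergCover F) := by rw [hperf]; trivial
    have h2 : ψ d ∈ (commutator (chevD4.SteinbergCover F)).map ψ := Subgroup.mem_map_of_mem _ this
    rw [commutator_def, Subgroup.map_commutator] at h2
    exact Subgroup.commutator_mono le_top le_top h2
  let π : chevD4.SteinbergCover F →* POE :=
    (QuotientGroup.mk' _).comp (ψ.codRestrict _ hmem)
  obtain ⟨θ, hθ, hθc, hθx⟩ := CentralExt.Cover.exists_projection hS
  obtain ⟨hsimple, hnc⟩ := ChevGrp.thm_simple hS hP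
  obtain ⟨e₀⟩ := Cfsg.Agent.S1082.result (F := F)
  haveI : Finite ↥(chevD4.group F) := Finite.of_injective e₀ e₀.injective
  -- the kernel is central
  have hker : π.ker ≤ θ.ker := by
    have hn : (π.ker.map θ).Normal := Subgroup.Normal.map inferInstance θ hθ
    rcases hsimple.eq_bot_or_eq_top_of_normal _ hn with h | h
    · rwa [Subgroup.map_eq_bot_iff] at h
    · exfalso
      have htop : π.ker ⊔ θ.ker = ⊤ := by
        rw [← Subgroup.comap_map_eq, h, Subgroup.comap_top]
      have hle : commutator (chevD4.SteinbergCover F) ≤ π.ker := by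
        rw [commutator_def, Subgroup.commutator_le]
        intro a ha b hb
        rw [← htop, Subgroup.mem_sup_of_normal_left] at ha hb
        obtain ⟨a₁, ha₁, a₂, ha₂, rfl⟩ := ha
        obtain ⟨b₁, hb₁, b₂, hb₂, rfl⟩ := hb
        rw [MonoidHom.mem_ker, map_commutatorElement, map_mul, map_mul, MonoidHom.mem_ker.1 ha₁,
          MonoidHom.mem_ker.1 hb₁, one_mul, one_mul, ← map_commutatorElement,
          commutatorElement_eq_one_iff_mul_comm.2 (Subgroup.mem_center_iff.1 (hθc hb₂) a₂), map_one]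
      -- a root element acts nontrivially
      have hroot : π (chevD4.scGen F 18 1) ≠ 1 := by
        intro hπ1
        have h1 : (ψ.codRestrict _ hmem) (chevD4.scGen F 18 1) ∈
            Subgroup.center ↥(Cfsg.Omega F (Cfsg.quadFormPlus 4 F)) :=
          (QuotientGroup.eq_one_iff _).1 hπ1
        have h2 := Subgroup.mem_center_iff.1 h1 ((ψ.codRestrict _ hmem) (chevD4.scGen F 5 1))
        have h3 := congrArg
          (fun s : ↥(Cfsg.Omega F (Cfsg.quadFormPlus 4 F)) =>
            ((s.1.1 : GL (Fin 4 ⊕ Fin 4) F) : Matrix (Fin 4 ⊕ Fin 4) (Fin 4 ⊕ Fin 4) F) *ᵥ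
              Pi.single (Sum.inl 0) 1) h2
        simp only [Subgroup.coe_mul, Units.val_mul, ← Matrix.mulVec_mulVec,
          MonoidHom.codRestrict_apply] at h3
        rw [hψ 5 (by decide), hψ 18 (by decide), hψ 18 (by decide), hψ 5 (by decide)] at h3
        have h4 := congrFun h3 (Sum.inl 0)
        simp [rootMat, repD4, Chev.Classical.meval_mulVec_apply, -Chev.Classical.meval_cons,
          Matrix.add_mulVec, d4Idx, finSumFinEquiv, Fin.addCases, Pi.single_apply] at h4
      exact hroot (hle (by rw [hperf]; trivial))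
  -- the range is everything
  let ρ : ↥π.range →* ↥(chevD4.group F) :=
    π.rangeRestrict.liftOfSurjective π.rangeRestrict_surjective
      ⟨θ, by rw [MonoidHom.ker_rangeRestrict]; exact hker⟩
  have hρ : ∀ d, ρ (π.rangeRestrict d) = θ d :=
    MonoidHom.liftOfRightInverse_comp_apply π.rangeRestrict _ _ ⟨θ, _⟩
  have hρs : Function.Surjective ρ := fun g => by
    obtain ⟨d, rfl⟩ := hθ g
    exact ⟨_, hρ d⟩
  haveI : Finite POE := Finite.of_injective e₀.symm e₀.symm.injective
  have hc : Nat.card ↥π.range = Nat.card ↥(chevD4.group F) := le_antisymm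
    ((Subgroup.card_le_card_group _).trans (Nat.card_congr e₀.toEquiv).ge)
    (Nat.card_le_card_of_surjective ρ hρs)
  have hbij : Function.Bijective ρ :=
    (Nat.bijective_iff_surjective_and_card _).2 ⟨hρs, hc⟩
  have htop : π.range = ⊤ := Subgroup.eq_top_of_card_eq _ (by
    rw [hc, Nat.card_congr e₀.toEquiv])
  refine ⟨(MulEquiv.ofBijective ρ hbij).symm.trans
    ((MulEquiv.subgroupCongr htop).trans Subgroup.topEquiv), fun r hr t => ?_⟩
  refine ⟨(ψ.codRestrict _ hmem) (chevD4.scGen F r t), ?_, fun v => hψ r hr t v⟩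
  have hx : θ (chevD4.scGen F r t) = (gSys hS).x r t :=
    KSG.Aut.eq_gSys_x hS hr (hθx r t hr)
  rw [← hx, ← hρ, MulEquiv.trans_apply,
    show (MulEquiv.ofBijective ρ hbij).symm (ρ (π.rangeRestrict (chevD4.scGen F r t))) =
      π.rangeRestrict (chevD4.scGen F r t) from MulEquiv.symm_apply_apply _ _]
  rfl

/-- The torus of similitudes with given values on the fundamental roots. -/
def torusD4 (F : Type u) [Field F] (u : Fin 4 → Fˣ) : GL (Fin 4 ⊕ Fin 4) F :=
  diagGL _ F (Sum.elim ![u 0 * u 1 * u 2, u 1 * u 2, u 2, 1]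
    fun i => (u 2 / u 3) * (![u 0 * u 1 * u 2, u 1 * u 2, u 2, 1] i)⁻¹)

theorem torusD4_mem (u : Fin 4 → Fˣ) : torusD4 F u ∈ GOp 1 F := by
  refine ⟨u 2 / u 3, fun v => ?_⟩
  show Cfsg.quadFormPlus 4 F _ = _ * Cfsg.quadFormPlus 4 F v
  simp only [Cfsg.quadFormPlus, torusD4, diagGL_mulVec, Sum.elim_inl, Sum.elim_inr, Finset.mul_sum]
  refine Finset.sum_congr rfl fun i _ => ?_
  rw [Units.val_mul, Units.val_inv_eq_inv_val]
  have := (![u 0 * u 1 * u 2, u 1 * u 2, u 2, 1] i).ne_zero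
  field_simp

theorem pchi_torusD4 (u : Fin 4 → Fˣ) : pchi 1 F ⟨torusD4 F u, torusD4_mem u⟩ = 1 :=
  pchi_eq_one_of_fix _ fun v hv => (mem_baseP _).2 fun i => by
    show ((torusD4 F u : GL (PIx 1) F) : Matrix (PIx 1) (PIx 1) F).mulVec v _ = 0
    rw [torusD4, diagGL_mulVec, (mem_baseP v).1 hv i, mul_zero]

theorem torusD4_rootMat (u : Fin 4 → Fˣ) (i : Fin 4) (t : F) (v : Fin 4 ⊕ Fin 4 → F) :
    ((torusD4 F u : GL _ F) : Matrix _ _ F) *ᵥ
        ((rootMat repD4 (![18, 14, 13, 12] i) t *ᵥ (v ∘ d4Idx.symm)) ∘ d4Idx) =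
      (rootMat repD4 (![18, 14, 13, 12] i) ((u i : F) * t) *ᵥ
        ((((torusD4 F u : GL _ F) : Matrix _ _ F) *ᵥ v) ∘ d4Idx.symm)) ∘ d4Idx ∧
    ((torusD4 F u : GL _ F) : Matrix _ _ F) *ᵥ
        ((rootMat repD4 (![5, 9, 10, 11] i) t *ᵥ (v ∘ d4Idx.symm)) ∘ d4Idx) =
      (rootMat repD4 (![5, 9, 10, 11] i) ((u i : F)⁻¹ * t) *ᵥ
        ((((torusD4 F u : GL _ F) : Matrix _ _ F) *ᵥ v) ∘ d4Idx.symm)) ∘ d4Idx := by
  have h0 := (u 0).ne_zero
  have h1 := (u 1).ne_zero
  have h2 := (u 2).ne_zero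
  have h3 := (u 3).ne_zero
  constructor <;> (funext a; fin_cases i <;> rcases a with a | a <;> fin_cases a) <;>
    simp [rootMat, repD4, torusD4, Chev.Classical.meval_mulVec_apply, -Chev.Classical.meval_cons,
      Matrix.add_mulVec, d4Idx, finSumFinEquiv, Fin.addCases, diagGL_mulVec, Function.comp] <;>
    field_simp <;> ring

theorem simple_D4 (i : Fin chevD4.rank) : chevD4.simple i = ![18, 14, 13, 12] (i : Fin 4) := by
  change Fin 4 at i; fin_cases i <;> rfl

theorem negSimple_D4 (i : Fin chevD4.rank) :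
    chevD4.neg (chevD4.simple i) = ![5, 9, 10, 11] (i : Fin 4) := by
  change Fin 4 at i; fin_cases i <;> rfl

set_option maxHeartbeats 4000000 in
/-- In dimension eight the inner-diagonal group is normal. -/
theorem inndiagEight_normal : (Cfsg.inndiagPOmegaPlus (1 + 3) F).Normal := by
  rcases (Classical.odd_or_charTwo (F := F)) with hodd | h2
  swap
  · haveI := h2
    rw [inndiagPlus_eq_inn_char_two (F := F) (k := 1)]
    exact AutPSL.inn_normal _
  have hS : Rules chevD4 F := Chev.rules_of_mem F POPlus.hMemD4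
  obtain ⟨len, hR⟩ := hS.root
  have hE := KSG.Aut.chainEdgeOK_of_mem POPlus.hMemD4
  have hD := KSG.chainStepOK_of_mem POPlus.hMemD4
  obtain ⟨e, he⟩ := exists_iso_D4 (F := F) hS
  let Γ : MulAut ↥(chevD4.group F) ≃* MulAut POE := MulAut.congr e
  -- diagonal automorphisms are inner-diagonal
  have hdiag : ∀ w, Γ (diagOf hS hR hE hD w) =
      simAut (⟨torusD4 F w, torusD4_mem w⟩ : ↥(GOp 1 F)) := by
    intro w
    set g : ↥(GOp 1 F) := ⟨torusD4 F w, torusD4_mem w⟩
    have key : ∀ r < chevD4.nroots, ∀ (t c : F),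
        (∀ v, (g.1 : Matrix (PIx 1) (PIx 1) F) *ᵥ
          ((rootMat repD4 r t *ᵥ (v ∘ d4Idx.symm)) ∘ d4Idx) =
          (rootMat repD4 r (c * t) *ᵥ (((g.1 : Matrix (PIx 1) (PIx 1) F) *ᵥ v) ∘ d4Idx.symm)) ∘
            d4Idx) →
        simAut g (e ((gSys hS).x r t)) = e ((gSys hS).x r (c * t)) := by
      intro r hr t c h
      obtain ⟨s, hs, hsv⟩ := he r hr t
      obtain ⟨s', hs', hsv'⟩ := he r hr (c * t)
      rw [hs, hs', simAut_mk]
      congr 1
      refine Subtype.ext (Subtype.ext ?_)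
      show g.1 * s.1.1 * g.1⁻¹ = s'.1.1
      rw [mul_inv_eq_iff_eq_mul]
      refine gl_ext fun v => ?_
      rw [Units.val_mul, Units.val_mul, ← Matrix.mulVec_mulVec, ← Matrix.mulVec_mulVec, hsv, hsv']
      exact h v
    refine Γ.symm.injective ?_
    rw [MulEquiv.symm_apply_apply]
    refine KSG.Aut.mulAut_ext hS hR (fun i t => ?_) (fun i t => ?_)
    · rw [(KSG.Aut.diagOf_x hS hR hE hD w i t).1]
      show _ = e.symm (simAut g (e _))
      rw [eq_comm, MulEquiv.symm_apply_eq]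
      refine key _ (hR.simple_lt i i.2) t (w i : F) fun v => ?_
      rw [simple_D4]
      exact (torusD4_rootMat w i t v).1
    · rw [(KSG.Aut.diagOf_x hS hR hE hD w i t).2]
      show _ = e.symm (simAut g (e _))
      rw [eq_comm, MulEquiv.symm_apply_eq]
      refine key _ (hR.neg_lt _ (hR.simple_lt i i.2)) t ((w i : F)⁻¹) fun v => ?_
      rw [negSimple_D4]
      exact (torusD4_rootMat w i t v).2
  let X : Subgroup (MulAut ↥(chevD4.group F)) :=
    (dOut hS hR hE hD).range.comap (QuotientGroup.mk' (Cfsg.Inn ↥(chevD4.group F)))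
  haveI : X.Normal := (KSG.Aut.dOut_normal hS hR hE hD POPlus.hMemD4).comap _
  have hInn : (Cfsg.Inn ↥(chevD4.group F)).map Γ.toMonoidHom = Cfsg.Inn POE := by
    ext β
    constructor
    · rintro ⟨_, ⟨a, rfl⟩, rfl⟩
      exact ⟨e a, MulEquiv.ext fun y => by simp [Γ]⟩
    · rintro ⟨a, rfl⟩
      exact ⟨MulAut.conj (e.symm a), ⟨_, rfl⟩, MulEquiv.ext fun y => by simp [Γ]⟩
  have hle : X.map Γ.toMonoidHom ≤ Cfsg.inndiagPOmegaPlus (1 + 3) F := by
    rintro _ ⟨α, ⟨w, hw⟩, rfl⟩
    have h1 : (diagOf hS hR hE hD w)⁻¹ * α ∈ Cfsg.Inn ↥(chevD4.group F) := QuotientGroup.eq.1 hw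
    have h2 : Γ ((diagOf hS hR hE hD w)⁻¹ * α) ∈ Cfsg.Inn POE :=
      hInn ▸ Subgroup.mem_map_of_mem Γ.toMonoidHom h1
    have h3 : Γ (diagOf hS hR hE hD w) ∈ Cfsg.inndiagPOmegaPlus (1 + 3) F := by
      rw [hdiag, inndiagPlus_eq]
      exact Subgroup.mem_map_of_mem _ (pchi_torusD4 w)
    show Γ α ∈ _
    have h4 := mul_mem h3 (inn_le_inndiagPlus (F := F) (k := 1) h2)
    rwa [← map_mul, mul_inv_cancel_left] at h4
  -- compare indices over the inner automorphisms
  have hX : (Cfsg.Inn POE).relIndex (X.map Γ.toMonoidHom) = 4 := by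
    rw [← hInn, Subgroup.relIndex_map_map_of_injective _ _ Γ.injective]
    have hI : Cfsg.Inn ↥(chevD4.group F) =
        (⊥ : Subgroup (Cfsg.Out ↥(chevD4.group F))).comap (QuotientGroup.mk' _) := by
      rw [MonoidHom.comap_bot, QuotientGroup.ker_mk']
    nth_rewrite 1 [hI]
    rw [Subgroup.relIndex_comap, Subgroup.map_comap_eq_self_of_surjective
      (QuotientGroup.mk'_surjective _), Subgroup.relIndex_bot_left, KSG.Aut.card_dOut hS hR hE hD,
      POPlus.card_rootKer_D4]
    obtain ⟨t, ht⟩ := hodd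
    rw [ht, Nat.add_sub_cancel, Nat.gcd_mul_right_right]
    rfl
  have hI4 : (Cfsg.Inn POE).relIndex (Cfsg.inndiagPOmegaPlus (1 + 3) F) = 4 := by
    set P := plusCoord (F := F) 1 with hP
    obtain ⟨S₁⟩ := Classical.nonempty_genSim_plus 1 hodd
    have hpos : P.theta P.negI = 1 := by
      rw [Classical.theta_negI_plus 1 hodd, if_neg (by rintro ⟨h, -⟩; exact absurd h (by decide))]
    obtain ⟨φ, hφs, hφk⟩ := (P.inndiag_mod_inn_four hodd (Classical.card_plus 1) hpos S₁).2 (by decide)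
    rw [Classical.inndiag_plus_eq 1 hodd, Subgroup.relIndex, ← hφk, Subgroup.index_ker,
      MonoidHom.range_eq_top.2 hφs, Subgroup.card_top]
    simp
  have hmid : Cfsg.Inn POE ≤ X.map Γ.toMonoidHom := by
    rw [← hInn]
    exact Subgroup.map_mono fun a ha => ⟨1, by rw [map_one]; exact ((QuotientGroup.eq_one_iff a).2 ha).symm⟩
  have h1 := Subgroup.relIndex_mul_relIndex _ _ _ hmid hle
  rw [hX, hI4] at h1
  have heq : X.map Γ.toMonoidHom = Cfsg.inndiagPOmegaPlus (1 + 3) F :=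
    le_antisymm hle (Subgroup.relIndex_eq_one.1 (by omega))
  rw [← heq]
  exact Subgroup.Normal.map inferInstance _ Γ.surjective

end Cfsg.Agent.OutPO
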