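import Mathlib
import Cfsg.Agent.OutPO.PlusClass

/-!
The rational minus-type group inside the plus-type group over a quadratic extension, and the
centralizer of an involutory graph-field automorphism.
-/

set_option autoImplicit false
set_option linter.unusedSectionVars false
set_option maxHeartbeats 1000000
set_option synthInstance.maxHeartbeats 400000

namespace Cfsg.Agent.OutPO

open Matrix QuadraticMap
open Cfsg.Agent.AutPSL (twistNorm)
open Cfsg.Agent.Classical (simAut binQF binQF_apply binMul minusQF minusQF_apply plusQF plusQF_apply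
  plusCoord plusScale plusTorus plusTorus_mulVec minusCoord minusScale)

universe u v

variable {F : Type u} [Field F] [Finite F] {j : ℕ}

/-- A root of `X² - aX + b` different from its conjugate. -/
structure SplitRoot (a b ω : F) : Prop where
  root : ω * ω - a * ω + b = 0
  ne : ω - (a - ω) ≠ 0

/-- Hyperbolic coordinates of a split minus-shaped form. -/
noncomputable def hypW (j : ℕ) {a b ω : F} (R : SplitRoot a b ω) :
    (MIx j → F) ≃ₗ[F] (PIx (j + 1) → F) where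
  toFun v := Sum.elim
    (Fin.cons (v (.inr 0) + (a - ω) * v (.inr 1)) fun i => v (.inl (.inl i)))
    (Fin.cons (v (.inr 0) + ω * v (.inr 1)) fun i => v (.inl (.inr i)))
  invFun w := Sum.elim
    (Sum.elim (fun i => w (.inl i.succ)) fun i => w (.inr i.succ))
    ![w (.inr 0) - ω * ((w (.inr 0) - w (.inl 0)) / (ω - (a - ω))),
      (w (.inr 0) - w (.inl 0)) / (ω - (a - ω))]
  map_add' v w := by
    ext (i | i) <;> refine Fin.cases ?_ (fun t => ?_) i <;> simp <;> ring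
  map_smul' c v := by
    ext (i | i) <;> refine Fin.cases ?_ (fun t => ?_) i <;> simp <;> ring
  left_inv v := by
    have := R.ne
    ext ((i | i) | i)
    · simp
    · simp
    · fin_cases i <;> simp <;> field_simp <;> ring
  right_inv w := by
    have := R.ne
    ext (i | i) <;> refine Fin.cases ?_ (fun t => ?_) i <;> simp <;> field_simp <;> ring

variable {a b ω : F}

theorem hypW_spec (R : SplitRoot a b ω) (v : MIx j → F) :
    Cfsg.quadFormPlus (j + 1 + 3) F (hypW j R v) = Cfsg.quadFormMinus (j + 3) F a b v := by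
  show Cfsg.quadFormPlus (j + 3 + 1) F (hypW j R v) = _
  rw [Cfsg.quadFormPlus, Cfsg.quadFormMinus, Fin.sum_univ_succ]
  simp only [hypW, LinearEquiv.coe_mk, LinearMap.coe_mk, AddHom.coe_mk, Sum.elim_inl,
    Sum.elim_inr, Fin.cons_zero, Fin.cons_succ]
  linear_combination (-(v (.inr 1) ^ 2)) * R.root

theorem hypW_sigma (R : SplitRoot a b ω) {σ : F ≃+* F} (ha : σ a = a) (hω : σ ω = a - ω)
    (v : MIx j → F) :
    (fun i => σ (hypW j R v i)) =
      ((swapP (j + 1) F).1 : Matrix (PIx (j + 1)) (PIx (j + 1)) F) *ᵥ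
        hypW j R (fun i => σ (v i)) := by
  rw [swapP_mulVec]
  funext i
  rcases i with i | i <;> refine Fin.cases ?_ (fun t => ?_) i
  · simp only [swapIdx, Equiv.swap_apply_left]
    show σ (v (.inr 0) + (a - ω) * v (.inr 1)) = σ (v (.inr 0)) + ω * σ (v (.inr 1))
    rw [map_add, map_mul, map_sub, hω, ha, sub_sub_cancel]
  · rw [swapIdx, Equiv.swap_apply_of_ne_of_ne (by simp) (by simp)]
    simp only [hypW, LinearEquiv.coe_mk, LinearMap.coe_mk, AddHom.coe_mk, Sum.elim_inl,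
      Fin.cons_succ]
  · simp only [swapIdx, Equiv.swap_apply_right]
    show σ (v (.inr 0) + ω * v (.inr 1)) = σ (v (.inr 0)) + (a - ω) * σ (v (.inr 1))
    rw [map_add, map_mul, hω]
  · rw [swapIdx, Equiv.swap_apply_of_ne_of_ne (by simp) (by simp)]
    simp only [hypW, LinearEquiv.coe_mk, LinearMap.coe_mk, AddHom.coe_mk, Sum.elim_inr,
      Fin.cons_succ]

/-- An involution of `F` with its fixed field and a splitting of the rational binary form. -/
structure GFData (F : Type u) [Field F] (F₀ : Type v) [Field F₀] where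
  σ : F ≃+* F
  e : F₀ →+* F
  a₀ : F₀
  b₀ : F₀
  ω : F
  aniso : (binQF a₀ b₀).Anisotropic
  he : ∀ x : F, σ x = x ↔ ∃ y, e y = x
  order : orderOf σ = 2
  R : SplitRoot (e a₀) (e b₀) ω
  conj : σ ω = e a₀ - ω

variable {F₀ : Type v} [Field F₀] [Finite F₀] (Dt : GFData F F₀)

theorem GFData.fix (x : F₀) : Dt.σ (Dt.e x) = Dt.e x := (Dt.he _).2 ⟨x, rfl⟩

theorem GFData.sigma_sigma (x : F) : Dt.σ (Dt.σ x) = x := by
  show (Dt.σ * Dt.σ) x = x
  rw [← pow_two, ← Dt.order, pow_orderOf_eq_one]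
  rfl

theorem exists_gfData {σ : F ≃+* F} (hσ : orderOf σ = 2) (e : F₀ →+* F)
    (he : ∀ x : F, σ x = x ↔ ∃ y, e y = x) : ∃ Dt : GFData F F₀, Dt.σ = σ := by
  obtain ⟨a₀, b₀, hab⟩ := Forms.exists_binaryAniso (F := F₀)
  have hA : (binQF a₀ b₀).Anisotropic := Classical.anisotropic_binQF hab
  letI : Algebra F₀ F := e.toAlgebra
  haveI := Fintype.ofFinite F₀
  haveI := Fintype.ofFinite F
  have hcard : Fintype.card F = Fintype.card F₀ ^ 2 := by
    have hf : Module.finrank F₀ F = 2 := finrank_fixed hσ he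
    rw [Module.card_eq_pow_finrank (K := F₀), hf]
  obtain ⟨ω, hω⟩ := Forms.exists_root_quadratic_extension (F := F₀) (K := F) hcard rfl (-a₀) b₀
  rw [map_neg] at hω
  change ω ^ 2 + -e a₀ * ω + e b₀ = 0 at hω
  have hroot : ω * ω - e a₀ * ω + e b₀ = 0 := by linear_combination hω
  have hc : σ ω = e a₀ - ω := galois_root (F₀ := F₀) he hroot hA
  have hne : ω - (e a₀ - ω) ≠ 0 := fun h => by
    refine Classical.binDisc_ne_zero hA (e.injective ?_)
    rw [map_sub, map_pow, map_mul, map_ofNat, map_zero]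
    linear_combination (2 * ω - e a₀) * h - 4 * hroot
  exact ⟨⟨σ, e, a₀, b₀, ω, hA, he, hσ, ⟨hroot, hne⟩, hc⟩, rfl⟩

/-- The rational similarity over `F`. -/
noncomputable def GFData.lin (g : ↥(GOm j Dt.a₀ Dt.b₀)) :
    (PIx (j + 1) → F) ≃ₗ[F] (PIx (j + 1) → F) :=
  ((hypW j Dt.R).symm.trans (linOf (GeneralLinearGroup.map Dt.e g.1))).trans (hypW j Dt.R)

theorem GFData.lin_apply (g : ↥(GOm j Dt.a₀ Dt.b₀)) (v : MIx j → F) :
    Dt.lin g (hypW j Dt.R v) = hypW j Dt.R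
      (((GeneralLinearGroup.map Dt.e g.1 : GL (MIx j) F) : Matrix (MIx j) (MIx j) F) *ᵥ v) := by
  show hypW j Dt.R (linOf _ ((hypW j Dt.R).symm (hypW j Dt.R v))) = _
  rw [LinearEquiv.symm_apply_apply, linOf_apply]

theorem GFData.incV_minus (w : MIx j → F₀) :
    Cfsg.quadFormMinus (j + 3) F (Dt.e Dt.a₀) (Dt.e Dt.b₀) (incV Dt.e w) =
      Dt.e (Cfsg.quadFormMinus (j + 3) F₀ Dt.a₀ Dt.b₀ w) :=
  minus_incV' Dt.e Dt.a₀ Dt.b₀ w

theorem GFData.lin_form (g : ↥(GOm j Dt.a₀ Dt.b₀)) :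
    ∃ c : Fˣ, ∀ v, Cfsg.quadFormPlus (j + 1 + 3) F (Dt.lin g v) =
      (c : F) * Cfsg.quadFormPlus (j + 1 + 3) F v := by
  obtain ⟨c, hc⟩ := g.2
  refine ⟨Units.map Dt.e.toMonoidHom c, fun v => ?_⟩
  obtain ⟨w, rfl⟩ := (hypW j Dt.R).surjective v
  rw [Dt.lin_apply, hypW_spec, hypW_spec]
  exact sim_of_rational Dt.e (minusQF (j + 3) (Dt.e Dt.a₀) (Dt.e Dt.b₀)) (minusQF_apply _ _ _)
    Dt.incV_minus (fun w => by
      rw [map_mulVec_inc, Dt.incV_minus, hc, map_mul]
      rfl) w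

theorem GFData.glOf_lin_mem (g : ↥(GOm j Dt.a₀ Dt.b₀)) : glOf (Dt.lin g) ∈ GOp (j + 1) F := by
  obtain ⟨c, hc⟩ := Dt.lin_form g
  exact ⟨c, fun v => by rw [glOf_mulVec, hc]⟩

/-- The rational minus-type similarity group in the plus-type one. -/
noncomputable def GFData.psi : ↥(GOm j Dt.a₀ Dt.b₀) →* ↥(GOp (j + 1) F) where
  toFun g := ⟨glOf (Dt.lin g), Dt.glOf_lin_mem g⟩
  map_one' := Subtype.ext (gl_ext fun v => by
    obtain ⟨w, rfl⟩ := (hypW j Dt.R).surjective v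
    show ((glOf (Dt.lin (1 : ↥(GOm j Dt.a₀ Dt.b₀))) : GL (PIx (j + 1)) F) : Matrix (PIx (j + 1)) (PIx (j + 1)) F) *ᵥ _ = _
    rw [glOf_mulVec, Dt.lin_apply, OneMemClass.coe_one, map_one, Units.val_one, one_mulVec,
      OneMemClass.coe_one, Units.val_one, one_mulVec])
  map_mul' g h := Subtype.ext (gl_ext fun v => by
    obtain ⟨w, rfl⟩ := (hypW j Dt.R).surjective v
    show ((glOf (Dt.lin (g * h)) : GL (PIx (j + 1)) F) : Matrix (PIx (j + 1)) (PIx (j + 1)) F) *ᵥ _ =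
      (((glOf (Dt.lin g) * glOf (Dt.lin h)) : GL (PIx (j + 1)) F) :
        Matrix (PIx (j + 1)) (PIx (j + 1)) F) *ᵥ _
    rw [glOf_mulVec, Units.val_mul, ← Matrix.mulVec_mulVec, glOf_mulVec, glOf_mulVec, Dt.lin_apply,
      Dt.lin_apply, Dt.lin_apply, Subgroup.coe_mul, map_mul, Units.val_mul, Matrix.mulVec_mulVec])

theorem GFData.psi_mulVec (g : ↥(GOm j Dt.a₀ Dt.b₀)) (v : MIx j → F) :
    ((Dt.psi g).1 : Matrix (PIx (j + 1)) (PIx (j + 1)) F) *ᵥ hypW j Dt.R v = hypW j Dt.R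
      (((GeneralLinearGroup.map Dt.e g.1 : GL (MIx j) F) : Matrix (MIx j) (MIx j) F) *ᵥ v) := by
  show ((glOf (Dt.lin g) : GL (PIx (j + 1)) F) : Matrix (PIx (j + 1)) (PIx (j + 1)) F) *ᵥ _ = _
  rw [glOf_mulVec, Dt.lin_apply]

theorem GFData.psi_refl (x : MIx j → F₀)
    (hx : Cfsg.quadFormMinus (j + 3) F₀ Dt.a₀ Dt.b₀ x ≠ 0) :
    ∃ hX, Dt.psi (isoInc ((minusCoord j Dt.aniso).refl x hx)) =
      isoIncP ((plusCoord (F := F) (j + 1)).refl (hypW j Dt.R (incV Dt.e x)) hX) := by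
  have hX : Cfsg.quadFormPlus (j + 1 + 3) F (hypW j Dt.R (incV Dt.e x)) ≠ 0 := by
    rw [hypW_spec, Dt.incV_minus]
    exact (map_ne_zero _).2 hx
  refine ⟨hX, Subtype.ext (gl_ext fun v => ?_)⟩
  let P := plusCoord (F := F) (j + 1)
  let L₁ : (MIx j → F) →ₗ[F] (PIx (j + 1) → F) := (Matrix.toLin'
    ((Dt.psi (isoInc ((minusCoord j Dt.aniso).refl x hx))).1 : Matrix (PIx (j + 1)) (PIx (j + 1)) F)).comp
      (hypW j Dt.R).toLinearMap
  let L₂ : (MIx j → F) →ₗ[F] (PIx (j + 1) → F) := (Matrix.toLin'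
    ((P.refl (hypW j Dt.R (incV Dt.e x)) hX).1 : Matrix (PIx (j + 1)) (PIx (j + 1)) F)).comp
      (hypW j Dt.R).toLinearMap
  have h : L₁ = L₂ := by
    refine (Pi.basisFun F (MIx j)).ext fun i => ?_
    rw [Pi.basisFun_apply, ← incV_single Dt.e i]
    simp only [L₁, L₂, LinearMap.comp_apply, LinearEquiv.coe_coe, Matrix.toLin'_apply]
    rw [Dt.psi_mulVec, map_mulVec_inc, P.refl_mulVec]
    show hypW j Dt.R (incV Dt.e
      ((((minusCoord j Dt.aniso).refl x hx).1 : Matrix (MIx j) (MIx j) F₀) *ᵥ _)) = _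
    rw [(minusCoord j Dt.aniso).refl_mulVec]
    have hp : ∀ w, polar (Cfsg.quadFormPlus (j + 1 + 3) F) (hypW j Dt.R (incV Dt.e x))
        (hypW j Dt.R (incV Dt.e w)) =
          Dt.e (polar (Cfsg.quadFormMinus (j + 3) F₀ Dt.a₀ Dt.b₀) x w) := fun w => by
      simp only [polar, ← map_add, ← incV_add, hypW_spec, Dt.incV_minus, map_sub]
    rw [hp, hypW_spec, Dt.incV_minus, ← map_inv₀, ← map_mul, ← map_smul, ← map_sub]
    congr 1
    funext t
    simp [incV]
  obtain ⟨w, rfl⟩ := (hypW j Dt.R).surjective v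
  have := DFunLike.congr_fun h w
  simp only [L₁, L₂, LinearMap.comp_apply, LinearEquiv.coe_coe, Matrix.toLin'_apply] at this
  exact this

/-- The eigenvalue of a scaling on the first hyperbolic line. -/
def GFData.unit (y : Fin 2 → F₀) : F := Dt.e (y 0) + Dt.ω * Dt.e (y 1)

theorem GFData.unit_norm (y : Fin 2 → F₀) :
    Dt.unit y * Dt.σ (Dt.unit y) = Dt.e (binQF Dt.a₀ Dt.b₀ y) := by
  rw [GFData.unit, map_add, map_mul, Dt.fix, Dt.fix, Dt.conj, binQF_apply]
  simp only [map_add, map_mul, map_pow]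
  linear_combination (-(Dt.e (y 1) ^ 2)) * Dt.R.root

theorem GFData.unit_ne (c : F₀ˣ) (y : Fin 2 → F₀) (hy : binQF Dt.a₀ Dt.b₀ y = (c : F₀)) :
    Dt.unit y ≠ 0 := fun h => by
  have := Dt.unit_norm y
  rw [h, zero_mul, hy, eq_comm, map_eq_zero] at this
  exact c.ne_zero this

theorem GFData.psi_scale (c : F₀ˣ) (y : Fin 2 → F₀) (hy : binQF Dt.a₀ Dt.b₀ y = (c : F₀)) :
    Dt.psi (minusScale (j + 3) Dt.a₀ Dt.b₀ c y hy) =
      plusScale (j + 1 + 3) (Units.map Dt.e.toMonoidHom c) *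
        isoIncP (plusTorus (j + 1 + 3)
          (Pi.mulSingle 0 (Units.mk0 _ (Dt.unit_ne c y hy))⁻¹)) := by
  refine Subtype.ext (gl_ext fun v => ?_)
  obtain ⟨w, rfl⟩ := (hypW j Dt.R).surjective v
  rw [Dt.psi_mulVec, Subgroup.coe_mul, Units.val_mul, ← Matrix.mulVec_mulVec]
  have hmap : ((GeneralLinearGroup.map Dt.e (minusScale (j + 3) Dt.a₀ Dt.b₀ c y hy).1 :
      GL (MIx j) F) : Matrix (MIx j) (MIx j) F) =
      Classical.minusScaleMat (j + 3) (Dt.e Dt.a₀) (Dt.e Dt.b₀) (Dt.e c) (fun i => Dt.e (y i)) := by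
    show (Classical.minusScaleMat (j + 3) Dt.a₀ Dt.b₀ (c : F₀) y).map Dt.e = _
    rw [Classical.minusScaleMat, Classical.minusScaleMat, Matrix.fromBlocks_map]
    congr 1
    · rw [Matrix.diagonal_map (map_zero _)]
      congr 1
      funext i
      rcases i with i | i <;> simp
    · exact Matrix.map_zero _ (map_zero _)
    · exact Matrix.map_zero _ (map_zero _)
    · ext i t
      fin_cases i <;> fin_cases t <;> simp
  rw [hmap]
  funext i
  show _ = (((Classical.diagGL (PIx (j + 1)) F _) : GL (PIx (j + 1)) F) :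
    Matrix (PIx (j + 1)) (PIx (j + 1)) F).mulVec _ i
  rw [Classical.diagGL_mulVec]
  show _ = _ * (((plusTorus (j + 1 + 3) _).1 : GL (PIx (j + 1)) F) :
    Matrix (PIx (j + 1)) (PIx (j + 1)) F).mulVec _ i
  rw [plusTorus_mulVec]
  have hu := Dt.unit_ne c y hy
  have hn := Dt.unit_norm y
  rw [hy, GFData.unit, map_add, map_mul, Dt.fix, Dt.fix, Dt.conj] at hn
  rw [GFData.unit] at hu
  rcases i with i | i <;> refine Fin.cases ?_ (fun t => ?_) i
  · simp [hypW, binMul, GFData.unit, Classical.minusScaleMat_inr]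
    have key : ∀ u v X : F, u ≠ 0 → u * v * (u⁻¹ * X) = v * X := fun u v X h => by field_simp
    rw [← hn, key _ _ _ hu]
    linear_combination -(Dt.e (y 1) * w (.inr 1)) * Dt.R.root
  · simp [hypW, Classical.minusScaleMat_inl]
  · simp [hypW, binMul, GFData.unit, Classical.minusScaleMat_inr]
    linear_combination -(Dt.e (y 1) * w (.inr 1)) * Dt.R.root
  · simp [hypW, Classical.minusScaleMat_inl]

theorem pchi_plusTorus {k : ℕ} (d : Fin (k + 3) → Fˣ) :
    pchi k F (isoIncP (plusTorus (k + 3) d)) = 1 :=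
  pchi_eq_one_of_fix _ fun v hv => (mem_baseP _).2 fun i => by
    show (((plusTorus (k + 3) d).1 : GL (PIx k) F) : Matrix (PIx k) (PIx k) F).mulVec v _ = 0
    rw [plusTorus_mulVec, (mem_baseP v).1 hv i, mul_zero]

theorem GFData.pchi_psi {K : Type v} [Field K] [Algebra F₀ K] {ω' : K}
    (E : QExt Dt.a₀ Dt.b₀ ω') :
    (pchi (j + 1) F).comp Dt.psi = (chi E : ↥(GOm j Dt.a₀ Dt.b₀) →* _) :=
  hom_ext_GOm E.aniso _ _ (fun x hx => by
      obtain ⟨hX, h⟩ := Dt.psi_refl x hx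
      rw [MonoidHom.comp_apply, h, pchi_refl, chi_refl])
    fun c y hy => by
      rw [MonoidHom.comp_apply, Dt.psi_scale, map_mul, pchi_plusScale, pchi_plusTorus, chi_scale,
        one_mul]

end Cfsg.Agent.OutPO
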