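import Mathlib
import Cfsg.Agent.OutPO.PlusGraph

/-!
The centralizer of an involutory graph-field automorphism of `PΩ⁺` is the rational minus-type group.
-/

set_option autoImplicit false
set_option linter.unusedSectionVars false
set_option maxHeartbeats 1000000
set_option synthInstance.maxHeartbeats 400000

namespace Cfsg.Agent.OutPO

open Matrix QuadraticMap
open Cfsg.Agent.AutPSL (twistNorm)
open Cfsg.Agent.Classical (simAut binQF minusQF minusQF_apply plusQF plusQF_apply plusCoord)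

universe u v

variable {F : Type u} [Field F] [Finite F] {j : ℕ} {F₀ : Type v} [Field F₀] [Finite F₀]
  (Dt : GFData F F₀)

/-- The standard involutory graph-field automorphism. -/
noncomputable def GFData.tau (j : ℕ) : MulAut (Cfsg.POmega F (Cfsg.quadFormPlus (j + 1 + 3) F)) :=
  simAut (swapP (j + 1) F) * phiP (j + 1) F Dt.σ

theorem GFData.tau_conj (g : ↥(GOp (j + 1) F)) :
    Dt.tau j * simAut g * (Dt.tau j)⁻¹ =
      simAut (swapP (j + 1) F * pConj (j + 1) Dt.σ g * swapP (j + 1) F) := by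
  rw [simAut_mulP (swapP (j + 1) F * pConj (j + 1) Dt.σ g) (swapP (j + 1) F),
    simAut_mulP (swapP (j + 1) F) (pConj (j + 1) Dt.σ g)]
  have h1 := phiP_mul_simAut Dt.σ g
  have h2 : (simAut (swapP (j + 1) F))⁻¹ = simAut (swapP (j + 1) F) := by
    rw [← simAut_invP, inv_eq_of_mul_eq_one_right swapP_mul_self]
  unfold GFData.tau
  calc simAut (swapP (j + 1) F) * phiP (j + 1) F Dt.σ * simAut g *
        (simAut (swapP (j + 1) F) * phiP (j + 1) F Dt.σ)⁻¹
      = simAut (swapP (j + 1) F) * (phiP (j + 1) F Dt.σ * simAut g) * (phiP (j + 1) F Dt.σ)⁻¹ *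
          (simAut (swapP (j + 1) F))⁻¹ := by group
    _ = simAut (swapP (j + 1) F) * simAut (pConj (j + 1) Dt.σ g) *
          (simAut (swapP (j + 1) F))⁻¹ := by rw [h1]; group
    _ = _ := by rw [h2]

theorem GFData.psi_fixed (g : ↥(GOm j Dt.a₀ Dt.b₀)) :
    swapP (j + 1) F * pConj (j + 1) Dt.σ (Dt.psi g) * swapP (j + 1) F = Dt.psi g := by
  suffices h : pConj (j + 1) Dt.σ (Dt.psi g) * swapP (j + 1) F = swapP (j + 1) F * Dt.psi g by
    rw [mul_assoc, h, ← mul_assoc, swapP_mul_self, one_mul]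
  refine Subtype.ext (gl_ext fun v => ?_)
  obtain ⟨w, rfl⟩ := (hypW j Dt.R).surjective v
  obtain ⟨u, rfl⟩ : ∃ u : MIx j → F, (fun i => Dt.σ (u i)) = w :=
    ⟨fun i => Dt.σ.symm (w i), funext fun i => Dt.σ.apply_symm_apply _⟩
  rw [Subgroup.coe_mul, Subgroup.coe_mul, Units.val_mul, Units.val_mul, ← Matrix.mulVec_mulVec,
    ← Matrix.mulVec_mulVec, ← hypW_sigma Dt.R (Dt.fix _) Dt.conj, pConj_coe, map_mulVec_comp,
    Dt.psi_mulVec, Dt.psi_mulVec, hypW_sigma Dt.R (Dt.fix _) Dt.conj, ← map_mulVec_comp,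
    map_map_of_fixed Dt.e Dt.he]

theorem GFData.mem_range_of_fixed {g : ↥(GOp (j + 1) F)}
    (hg : swapP (j + 1) F * pConj (j + 1) Dt.σ g * swapP (j + 1) F = g) :
    ∃ g₀ : ↥(GOm j Dt.a₀ Dt.b₀), Dt.psi g₀ = g := by
  set H := hypW j Dt.R with hH
  let L : (MIx j → F) ≃ₗ[F] (MIx j → F) := (H.trans (linOf g.1)).trans H.symm
  have hL : ∀ v, H (L v) = (g.1 : Matrix (PIx (j + 1)) (PIx (j + 1)) F) *ᵥ H v := fun v => by
    show H (H.symm (linOf g.1 (H v))) = _
    rw [LinearEquiv.apply_symm_apply, linOf_apply]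
  have hcomm : pConj (j + 1) Dt.σ g * swapP (j + 1) F = swapP (j + 1) F * g := by
    conv_rhs => rw [← hg, ← mul_assoc, ← mul_assoc, swapP_mul_self, one_mul]
  have hLσ : ∀ v, (fun i => Dt.σ (L v i)) = L fun i => Dt.σ (v i) := fun v => by
    apply H.injective
    apply (linOf (swapP (j + 1) F).1).injective
    rw [linOf_apply, linOf_apply, hH, ← hypW_sigma Dt.R (Dt.fix _) Dt.conj, ← hH, hL, hL,
      ← map_mulVec_comp, ← pConj_coe, hH, hypW_sigma Dt.R (Dt.fix _) Dt.conj,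
      Matrix.mulVec_mulVec, Matrix.mulVec_mulVec, ← Units.val_mul, ← Units.val_mul,
      ← Subgroup.coe_mul, ← Subgroup.coe_mul, hcomm]
  have hMσ : GeneralLinearGroup.map Dt.σ.toRingHom (glOf L) = glOf L := gl_ext fun v => by
    obtain ⟨u, rfl⟩ : ∃ u : MIx j → F, (fun i => Dt.σ (u i)) = v :=
      ⟨fun i => Dt.σ.symm (v i), funext fun i => Dt.σ.apply_symm_apply _⟩
    rw [map_mulVec_comp, glOf_mulVec, glOf_mulVec, hLσ]
  obtain ⟨g₀, hg₀⟩ := exists_rational_gl Dt.e Dt.he hMσ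
  obtain ⟨μ, hμ⟩ := g.2
  have hform : ∀ w, Dt.e (Cfsg.quadFormMinus (j + 3) F₀ Dt.a₀ Dt.b₀
      ((g₀ : Matrix (MIx j) (MIx j) F₀) *ᵥ w)) =
      (μ : F) * Dt.e (Cfsg.quadFormMinus (j + 3) F₀ Dt.a₀ Dt.b₀ w) := fun w => by
    rw [← Dt.incV_minus, ← Dt.incV_minus, ← map_mulVec_inc, hg₀, glOf_mulVec,
      ← hypW_spec Dt.R, ← hypW_spec Dt.R, ← hH, hL, hμ]
  set w₁ : MIx j → F₀ := Pi.single (.inr 0) 1
  have hw₁ : Cfsg.quadFormMinus (j + 3) F₀ Dt.a₀ Dt.b₀ w₁ = 1 := by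
    simp [w₁, Cfsg.quadFormMinus, Pi.single_apply]
  set c := Cfsg.quadFormMinus (j + 3) F₀ Dt.a₀ Dt.b₀ ((g₀ : Matrix (MIx j) (MIx j) F₀) *ᵥ w₁)
  have hc : Dt.e c = (μ : F) := by rw [hform, hw₁, map_one, mul_one]
  have hc0 : c ≠ 0 := fun h => μ.ne_zero (by rw [← hc, h, map_zero])
  refine ⟨⟨g₀, Units.mk0 c hc0, fun w => Dt.e.injective ?_⟩, Subtype.ext (gl_ext fun v => ?_)⟩
  · rw [hform, Units.val_mk0, map_mul, hc]
  · obtain ⟨w, rfl⟩ := H.surjective v
    rw [hH, Dt.psi_mulVec, ← hH]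
    show H (((GeneralLinearGroup.map Dt.e g₀ : GL (MIx j) F) : Matrix (MIx j) (MIx j) F) *ᵥ w) = _
    rw [hg₀, glOf_mulVec, hL]

theorem scal_mulP (c d : Fˣ) : (plusCoord (F := F) (j + 1)).scal c *
    (plusCoord (F := F) (j + 1)).scal d = (plusCoord (F := F) (j + 1)).scal (c * d) :=
  Subtype.ext (map_mul (GeneralLinearGroup.scalar (PIx (j + 1))) c d).symm

theorem scal_injP {c d : Fˣ}
    (h : (plusCoord (F := F) (j + 1)).scal c = (plusCoord (F := F) (j + 1)).scal d) : c = d := by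
  have h1 := congrArg (fun g : ↥(GOp (j + 1) F) =>
    ((g.1 : Matrix (PIx (j + 1)) (PIx (j + 1)) F) *ᵥ fun _ => (1 : F)) (.inl 0)) h
  simp only [scal_mulVec_p, Pi.smul_apply, smul_eq_mul, mul_one] at h1
  exact Units.ext h1

set_option maxHeartbeats 4000000 in
/-- The similitudes commuting with `tau` are scalars times rational ones. -/
theorem GFData.commute_iff (hk : 2 ≤ j + 1) (g : ↥(GOp (j + 1) F)) :
    Commute (simAut g) (Dt.tau j) ↔ ∃ (c : Fˣ) (g₀ : ↥(GOm j Dt.a₀ Dt.b₀)),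
      g = (plusCoord (F := F) (j + 1)).scal c * Dt.psi g₀ := by
  set P := plusCoord (F := F) (j + 1) with hP
  set sw := swapP (j + 1) F with hsw
  set s := Units.map Dt.σ.toRingHom.toMonoidHom with hs
  have hscal : ∀ c g', sw * pConj (j + 1) Dt.σ (P.scal c * g') * sw =
      P.scal (s c) * (sw * pConj (j + 1) Dt.σ g' * sw) := fun c g' => by
    rw [map_mul, pConj_scal, ← mul_assoc sw, ← scal_commP _ sw, mul_assoc (P.scal _) sw,
      mul_assoc (P.scal _)]
  constructor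
  · intro h
    have h1 : simAut (sw * pConj (j + 1) Dt.σ g * sw) = simAut g := by
      rw [← Dt.tau_conj, ← h.eq, mul_inv_cancel_right]
    have h2 : simAut (g⁻¹ * (sw * pConj (j + 1) Dt.σ g * sw)) = 1 := by
      rw [simAut_mulP, simAut_invP, h1, inv_mul_cancel]
    obtain ⟨lam, hlam⟩ := (simAut_ker_iff_plus hk _).1 h2
    have hg : sw * pConj (j + 1) Dt.σ g * sw = P.scal lam * g := by
      rw [scal_commP, show P.scal lam = g⁻¹ * (sw * pConj (j + 1) Dt.σ g * sw) from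
        Subtype.ext hlam, mul_inv_cancel_left]
    have hgg : sw * pConj (j + 1) Dt.σ (sw * pConj (j + 1) Dt.σ g * sw) * sw = g := by
      rw [map_mul, map_mul, hsw, pConj_swapP, ← hsw]
      have e : pConj (j + 1) Dt.σ (pConj (j + 1) Dt.σ g) = g := Subtype.ext (Units.ext
        (Matrix.ext fun i t => Dt.sigma_sigma _))
      rw [e, ← mul_assoc, ← mul_assoc, hsw, swapP_mul_self, one_mul, mul_assoc, swapP_mul_self,
        mul_one]
    rw [hg, hscal, hg, ← mul_assoc, scal_mulP, mul_eq_right] at hgg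
    have hlam1 : s lam * lam = 1 := scal_injP (hgg.trans (Subtype.ext (map_one _)).symm)
    obtain ⟨t, ht⟩ := exists_hilbert90 Dt.σ Dt.order lam (by
      show lam * s (lam * s 1) = 1
      rw [map_one, mul_one, mul_comm, hlam1])
    have htu : s t * lam = t := Units.ext (by rw [Units.val_mul, mul_comm]; exact ht)
    have hfix : sw * pConj (j + 1) Dt.σ (P.scal t * g) * sw = P.scal t * g := by
      rw [hscal, hg, ← mul_assoc, scal_mulP, htu]
    obtain ⟨g₀, hg₀⟩ := Dt.mem_range_of_fixed hfix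
    refine ⟨t⁻¹, g₀, ?_⟩
    rw [hg₀, ← mul_assoc, scal_mulP, inv_mul_cancel,
      show P.scal 1 = 1 from Subtype.ext (map_one _), one_mul]
  · rintro ⟨c, g₀, rfl⟩
    rw [simAut_mulP, P.simAut_scal, one_mul]
    have h := Dt.tau_conj (Dt.psi g₀)
    rw [Dt.psi_fixed] at h
    exact (mul_inv_eq_iff_eq_mul.1 h).symm

theorem GFData.psi_scalar_iff (g : ↥(GOm j Dt.a₀ Dt.b₀)) :
    (Dt.psi g).1 ∈ Cfsg.Geo.scalars (PIx (j + 1)) F ↔
      g.1 ∈ Cfsg.Geo.scalars (MIx j) F₀ := by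
  rw [Cfsg.Geo.mem_scalars_iff, Cfsg.Geo.mem_scalars_iff]
  constructor
  · rintro ⟨c, hc⟩
    have hmap : ∀ v, ((GeneralLinearGroup.map Dt.e g.1 : GL (MIx j) F) :
        Matrix (MIx j) (MIx j) F) *ᵥ v = (c : F) • v := fun v => (hypW j Dt.R).injective (by
      rw [← Dt.psi_mulVec, hc, Matrix.smul_mulVec, one_mulVec, map_smul])
    have h1 : ∀ i t, Dt.e ((g.1 : Matrix (MIx j) (MIx j) F₀) i t) = if i = t then (c : F) else 0 :=
      fun i t => by
        have := congrFun (hmap (Pi.single t 1)) i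
        rw [Matrix.mulVec_single_one] at this
        simpa [Pi.single_apply] using this
    set c₀ := (g.1 : Matrix (MIx j) (MIx j) F₀) (.inr 0) (.inr 0)
    have hc₀ : Dt.e c₀ = (c : F) := by rw [h1, if_pos rfl]
    have hne : c₀ ≠ 0 := fun h => c.ne_zero (by rw [← hc₀, h, map_zero])
    refine ⟨Units.mk0 c₀ hne, Matrix.ext fun i t => Dt.e.injective ?_⟩
    rw [h1, Matrix.smul_apply, Matrix.one_apply, Units.val_mk0, smul_eq_mul]
    split_ifs <;> simp [hc₀]
  · rintro ⟨c, hc⟩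
    refine ⟨Units.map Dt.e.toMonoidHom c, Matrix.ext_iff_mulVec.2 fun v => ?_⟩
    obtain ⟨w, rfl⟩ := (hypW j Dt.R).surjective v
    rw [Dt.psi_mulVec, Matrix.smul_mulVec, one_mulVec, ← map_smul]
    congr 1
    show (g.1 : Matrix (MIx j) (MIx j) F₀).map Dt.e *ᵥ w = Dt.e (c : F₀) • w
    rw [hc]
    funext i
    simp [Matrix.mulVec, dotProduct, Matrix.one_apply, apply_ite Dt.e]

theorem GFData.exists_qext' :
    ∃ (K : Type v) (_ : Field K) (_ : Algebra F₀ K) (ω' : K), QExt Dt.a₀ Dt.b₀ ω' :=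
  exists_qext Dt.aniso

set_option maxHeartbeats 4000000 in
/-- The centralizer of `tau` in `Inndiag`. -/
theorem GFData.centralizer_iso (hk : 2 ≤ j + 1) :
    Nonempty (↥(Cfsg.inndiagPOmegaPlus (j + 1 + 3) F ⊓ Subgroup.centralizer {Dt.tau j}) ≃*
      ↥(Cfsg.inndiagPOmegaMinus (j + 3) F₀ Dt.a₀ Dt.b₀)) := by
  obtain ⟨K₀, _, _, ω₀, E₀⟩ := Dt.exists_qext'
  set P := (chi E₀ : ↥(GOm j Dt.a₀ Dt.b₀) →* _).ker with hP
  let ψ₀ : ↥P →* MulAut (Cfsg.POmega F₀ (Cfsg.quadFormMinus (j + 3) F₀ Dt.a₀ Dt.b₀)) :=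
    simAut.comp P.subtype
  let ψ : ↥P →* MulAut (Cfsg.POmega F (Cfsg.quadFormPlus (j + 1 + 3) F)) :=
    simAut.comp (Dt.psi.comp P.subtype)
  have hker : ψ.ker = ψ₀.ker := by
    ext g
    show simAut (Dt.psi g.1) = 1 ↔ simAut g.1 = 1
    rw [simAut_ker_iff_plus hk, simAut_ker_iff E₀, Dt.psi_scalar_iff]
  have hchi : ∀ g, pchi (j + 1) F (Dt.psi g) = chi E₀ g := fun g =>
    DFunLike.congr_fun (Dt.pchi_psi E₀) g
  have hrange : ψ.range =
      Cfsg.inndiagPOmegaPlus (j + 1 + 3) F ⊓ Subgroup.centralizer {Dt.tau j} := by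
    ext β
    rw [inndiagPlus_eq, Subgroup.mem_inf, Subgroup.mem_centralizer_singleton_iff]
    constructor
    · rintro ⟨g, rfl⟩
      exact ⟨Subgroup.mem_map_of_mem _ (by
          rw [MonoidHom.mem_ker]; exact (hchi g.1).trans g.2),
        ((Dt.commute_iff hk _).2 ⟨1, g.1, by
          rw [show (plusCoord (F := F) (j + 1)).scal 1 = 1 from Subtype.ext (map_one _),
            one_mul]; rfl⟩).eq⟩
    · rintro ⟨⟨g, hg, rfl⟩, hc⟩
      obtain ⟨c, g₀, rfl⟩ := (Dt.commute_iff hk g).1 hc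
      refine ⟨⟨g₀, ?_⟩, ?_⟩
      · rw [SetLike.mem_coe, MonoidHom.mem_ker, map_mul,
          pchi_scalar _ ((plusCoord (F := F) (j + 1)).scal_mem c), one_mul, hchi] at hg
        exact hg
      · show simAut (Dt.psi g₀) = simAut (_ * Dt.psi g₀)
        rw [simAut_mulP, (plusCoord (F := F) (j + 1)).simAut_scal, one_mul]
  have hrange0 : ψ₀.range = Cfsg.inndiagPOmegaMinus (j + 3) F₀ Dt.a₀ Dt.b₀ := by
    rw [inndiagMinus_eq E₀, MonoidHom.range_comp, Subgroup.range_subtype]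
  exact ⟨((MulEquiv.subgroupCongr hrange.symm).trans
    (QuotientGroup.quotientKerEquivRange ψ).symm).trans
    (((QuotientGroup.quotientMulEquivOfEq hker).trans
      (QuotientGroup.quotientKerEquivRange ψ₀)).trans (MulEquiv.subgroupCongr hrange0))⟩

end Cfsg.Agent.OutPO
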