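import Mathlib
import Cfsg.Agent.OutPO.PlusGraphCentral
import Cfsg.Agent.AutPSL.ClassSplit

/-!
Splitting of the class of an involutory graph-field automorphism of `PΩ⁺` into classes of the
simple group.
-/

set_option autoImplicit false
set_option linter.unusedSectionVars false
set_option maxHeartbeats 1000000
set_option synthInstance.maxHeartbeats 400000

namespace Cfsg.Agent.OutPO

open Matrix QuadraticMap
open Cfsg.Agent.Classical (simAut binQF binQF_apply plusCoord plusScale plusTorus plusTorus_mulVec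
  minusCoord minusScale)

universe u v

variable {F : Type u} [Field F] [Finite F] {j : ℕ} {F₀ : Type v} [Field F₀] [Finite F₀]
  (Dt : GFData F F₀)

include Dt in
theorem GFData.card_eq : Nat.card F = Nat.card F₀ ^ 2 := by
  letI : Algebra F₀ F := Dt.e.toAlgebra
  haveI : Module.Finite F₀ F := Module.Finite.of_finite
  have hf : Module.finrank F₀ F = 2 := finrank_fixed Dt.order Dt.he
  rw [Module.natCard_eq_pow_finrank (K := F₀), hf]

include Dt in
theorem GFData.odd_base (hodd : Odd (Nat.card F)) : Odd (Nat.card F₀) := by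
  rw [Dt.card_eq] at hodd
  exact (Nat.odd_pow_iff two_ne_zero).1 hodd

include Dt in
theorem GFData.card_mod_four (hodd : Odd (Nat.card F)) : Nat.card F % 4 = 1 := by
  obtain ⟨t, ht⟩ := Dt.odd_base hodd
  rw [Dt.card_eq, ht, pow_two]
  ring_nf
  omega

include Dt in
theorem GFData.theta_negI (hodd : Odd (Nat.card F)) :
    (plusCoord (F := F) (j + 1)).theta (plusCoord (F := F) (j + 1)).negI = 1 := by
  rw [Classical.theta_negI_plus (j + 1) hodd, if_neg fun h => by
    have := Dt.card_mod_four hodd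
    omega]

theorem exists_nonsquare_odd (hodd : Odd (Nat.card F₀)) : ∃ c : F₀ˣ, ¬ IsSquare (c : F₀) := by
  obtain ⟨c, hc⟩ := FiniteField.exists_nonsquare (F := F₀) (fun h => by
    haveI : CharP F₀ 2 := h ▸ ringChar.charP F₀
    exact Classical.two_ne_zero_of_odd hodd CharTwo.two_eq_zero)
  exact ⟨Units.mk0 c fun h => hc (h ▸ ⟨0, (mul_zero 0).symm⟩), hc⟩

theorem nonsquare_mul_nonsquare {a b : F} (ha : ¬ IsSquare a) (hb : ¬ IsSquare b) :
    IsSquare (a * b) := by
  classical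
  haveI := Fintype.ofFinite F
  have ha0 : a ≠ 0 := fun h => ha (h ▸ ⟨0, (mul_zero 0).symm⟩)
  have hb0 : b ≠ 0 := fun h => hb (h ▸ ⟨0, (mul_zero 0).symm⟩)
  rw [← quadraticChar_one_iff_isSquare (mul_ne_zero ha0 hb0), map_mul,
    quadraticChar_neg_one_iff_not_isSquare.2 ha, quadraticChar_neg_one_iff_not_isSquare.2 hb]
  rfl

include Dt in
/-- An element is a square exactly when its norm is one in the subfield. -/
theorem GFData.isSquare_iff_norm (hodd : Odd (Nat.card F)) (x : F) (n : F₀) (hn : n ≠ 0)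
    (h : x * Dt.σ x = Dt.e n) : IsSquare x ↔ IsSquare n := by
  have fwd : ∀ (x : F) (n : F₀), x * Dt.σ x = Dt.e n → IsSquare x → IsSquare n := by
    rintro x n h ⟨s, rfl⟩
    obtain ⟨y, hy⟩ := (Dt.he (s * Dt.σ s)).1 (by rw [map_mul, Dt.sigma_sigma, mul_comm])
    exact ⟨y, Dt.e.injective (by rw [map_mul, hy, ← h, map_mul]; ring)⟩
  refine ⟨fwd x n h, fun hns => ?_⟩
  by_contra hx
  obtain ⟨c, hc⟩ := exists_nonsquare_odd (Dt.odd_base hodd)
  obtain ⟨y, hy⟩ := exists_minus_norm Dt.aniso c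
  have hu : Dt.unit y * Dt.σ (Dt.unit y) = Dt.e (c : F₀) := by rw [Dt.unit_norm, hy]
  have hu' : ¬ IsSquare (Dt.unit y) := fun h' => hc (fwd _ _ hu h')
  have h2 : IsSquare (n * (c : F₀)) := fwd _ _ (by
    rw [map_mul Dt.e, ← h, ← hu, map_mul Dt.σ]
    ring) (nonsquare_mul_nonsquare hx hu')
  obtain ⟨s, hs⟩ := hns
  obtain ⟨r, hr⟩ := h2
  have hs0 : s ≠ 0 := fun h0 => hn (by rw [hs, h0, mul_zero])
  refine hc ⟨r / s, ?_⟩
  field_simp
  rw [hs] at hr
  linear_combination hr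

include Dt in
theorem GFData.isSquare_rational (hodd : Odd (Nat.card F)) (c : F₀) : IsSquare (Dt.e c) := by
  rcases eq_or_ne c 0 with rfl | hc
  · exact ⟨0, by simp⟩
  · exact (Dt.isSquare_iff_norm hodd _ (c * c) (mul_ne_zero hc hc)
      (by rw [Dt.fix, map_mul])).2 ⟨c, rfl⟩

/-! ### Signs on the torus -/

theorem exists_units_sq {c : Fˣ} (h : IsSquare (c : F)) : ∃ s : Fˣ, s * s = c := by
  obtain ⟨t, ht⟩ := h
  exact ⟨Units.mk0 t (fun h => c.ne_zero (by rw [ht, h, mul_zero])), Units.ext ht.symm⟩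

theorem theta_const_sq {k : ℕ} {c : Fˣ} (hc : IsSquare (c : F)) :
    (plusCoord (F := F) k).theta (plusTorus (k + 3) fun _ => c) = 1 := by
  obtain ⟨s, rfl⟩ := exists_units_sq hc
  rw [show (fun _ : Fin (k + 3) => s * s) = (fun _ => s) * (fun _ => s) from rfl, map_mul, map_mul,
    Int.units_mul_self]

theorem theta_single_sq {k : ℕ} (i : Fin (k + 3)) {c : Fˣ} (hc : IsSquare (c : F)) :
    (plusCoord (F := F) k).theta (plusTorus (k + 3) (Pi.mulSingle i c)) = 1 := by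
  obtain ⟨s, rfl⟩ := exists_units_sq hc
  rw [Pi.mulSingle_mul, map_mul, map_mul, Int.units_mul_self]

theorem isSquare_inv_units {c : Fˣ} : IsSquare ((c⁻¹ : Fˣ) : F) ↔ IsSquare (c : F) := by
  rw [Units.val_inv_eq_inv_val, isSquare_inv]

theorem det_of_pchi {k : ℕ} (hodd : Odd (Nat.card F))
    (s : ↥(Cfsg.isometryGroup F (Cfsg.quadFormPlus (k + 3) F))) (h : pchi k F (isoIncP s) = 1) :
    Matrix.GeneralLinearGroup.det s.1 = 1 := by
  rw [← (plusCoord (F := F) k).dsign_inc (n := k + 3) s]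
  have : isoIncP s ∈ (pchi k F).ker := h
  rw [ker_pchi_eq_dsign hodd] at this
  exact this

include Dt in
theorem GFData.inner_iff (hodd : Odd (Nat.card F))
    (s : ↥(Cfsg.isometryGroup F (Cfsg.quadFormPlus (j + 1 + 3) F)))
    (h : pchi (j + 1) F (isoIncP s) = 1) :
    simAut (isoIncP s) ∈ Cfsg.Inn (Cfsg.POmega F (Cfsg.quadFormPlus (j + 1 + 3) F)) ↔
      (plusCoord (F := F) (j + 1)).theta s = 1 := by
  refine ((plusCoord (F := F) (j + 1)).mem_inn_iso_iff hodd (Classical.card_plus (j + 1)) s).trans ?_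
  rw [Dt.theta_negI hodd]
  exact ⟨fun h' => h'.2.resolve_right (by decide), fun h' => ⟨det_of_pchi hodd s h, Or.inl h'⟩⟩

/-- A rational scaling up to a scalar. -/
theorem GFData.psi_scale_torus (c : F₀ˣ) (y : Fin 2 → F₀)
    (hy : binQF Dt.a₀ Dt.b₀ y = (c : F₀)) (t : Fˣ) (ht : t * t = Units.map Dt.e.toMonoidHom c) :
    Dt.psi (minusScale (j + 3) Dt.a₀ Dt.b₀ c y hy) = (plusCoord (F := F) (j + 1)).scal t *
      isoIncP (plusTorus (j + 1 + 3) fun _ => t) *
        isoIncP (plusTorus (j + 1 + 3) (Pi.mulSingle 0 (Units.mk0 _ (Dt.unit_ne c y hy))⁻¹)) := by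
  rw [Dt.psi_scale]
  congr 1
  refine Subtype.ext (gl_ext fun v => ?_)
  rw [Subgroup.coe_mul, Units.val_mul, ← Matrix.mulVec_mulVec, scal_mulVec_p]
  funext i
  show (((Classical.diagGL (PIx (j + 1)) F _) : GL (PIx (j + 1)) F) :
      Matrix (PIx (j + 1)) (PIx (j + 1)) F).mulVec v i =
    (t : F) • (((plusTorus (j + 1 + 3) fun _ => t).1 : GL (PIx (j + 1)) F) :
      Matrix (PIx (j + 1)) (PIx (j + 1)) F).mulVec v i
  rw [Classical.diagGL_mulVec, plusTorus_mulVec, smul_eq_mul, ← mul_assoc, ← Units.val_mul]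
  rcases i with i | i
  · rw [Sum.elim_inl, Sum.elim_inl, ← ht]
  · rw [Sum.elim_inr, Sum.elim_inr, mul_inv_cancel]

/-- The rational isometry group in the plus-type one. -/
noncomputable def GFData.psiIso :
    ↥(Cfsg.isometryGroup F₀ (Cfsg.quadFormMinus (j + 3) F₀ Dt.a₀ Dt.b₀)) →*
      ↥(Cfsg.isometryGroup F (Cfsg.quadFormPlus (j + 1 + 3) F)) :=
  ((Subgroup.subtype _).comp (Dt.psi.comp isoInc)).codRestrict _ fun o =>
    Classical.mem_isoGroup.2 fun v => by
      obtain ⟨w, rfl⟩ := (hypW j Dt.R).surjective v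
      show Cfsg.quadFormPlus (j + 1 + 3) F
        (((Dt.psi (isoInc o)).1 : Matrix (PIx (j + 1)) (PIx (j + 1)) F) *ᵥ hypW j Dt.R w) = _
      rw [Dt.psi_mulVec, hypW_spec, hypW_spec]
      exact Classical.mem_isoGroup.1 ((map_mem_iso_iff Dt.e
        (Classical.minusQF (j + 3) (Dt.e Dt.a₀) (Dt.e Dt.b₀)) (Classical.minusQF_apply _ _ _)
        Dt.incV_minus o.1).2 o.2) w

theorem GFData.isoIncP_psiIso
    (o : ↥(Cfsg.isometryGroup F₀ (Cfsg.quadFormMinus (j + 3) F₀ Dt.a₀ Dt.b₀))) :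
    isoIncP (Dt.psiIso o) = Dt.psi (isoInc o) := Subtype.ext rfl

/-- The homomorphism of `Multiplicative (ZMod 2)` with a given sign. -/
def signHom (z : ℤˣ) : Multiplicative (ZMod 2) →* ℤˣ where
  toFun x := if x = 1 then 1 else z
  map_one' := if_pos rfl
  map_mul' x y := by
    have hz := Int.units_mul_self z
    revert x y z
    decide

theorem signHom_one (z : ℤˣ) : signHom z (Multiplicative.ofAdd 1) = z := by
  show (if Multiplicative.ofAdd (1 : ZMod 2) = 1 then (1 : ℤˣ) else z) = z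
  exact if_neg (by decide)

theorem GFData.theta_psiIso (hodd : Odd (Nat.card F)) {K : Type v} [Field K] [Algebra F₀ K]
    {ω' : K} (E : QExt Dt.a₀ Dt.b₀ ω')
    (o : ↥(Cfsg.isometryGroup F₀ (Cfsg.quadFormMinus (j + 3) F₀ Dt.a₀ Dt.b₀)))
    (ho : chi E (isoInc o) = 1) :
    (plusCoord (F := F) (j + 1)).theta (Dt.psiIso o) = 1 := by
  set P := plusCoord (F := F) (j + 1) with hP
  set x₁ : MIx j → F₀ := Pi.single (.inr 0) 1
  have hx₁ : Cfsg.quadFormMinus (j + 3) F₀ Dt.a₀ Dt.b₀ x₁ ≠ 0 := by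
    simp [x₁, Cfsg.quadFormMinus, Pi.single_apply]
  obtain ⟨hX₁, -⟩ := Dt.psi_refl x₁ hx₁
  have key : P.theta.comp Dt.psiIso = (signHom (P.theta (P.refl _ hX₁))).comp
      ((chi E).comp isoInc) := by
    refine hom_ext_refl (minusCoord j Dt.aniso) _ _ fun x hx => ?_
    obtain ⟨hX, h⟩ := Dt.psi_refl x hx
    have h' : Dt.psiIso ((minusCoord j Dt.aniso).refl x hx) = P.refl _ hX := by
      refine Subgroup.inclusion_injective Classical.isoGroup_le_simGroup ?_
      exact (Dt.isoIncP_psiIso _).trans h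
    rw [MonoidHom.comp_apply, h', MonoidHom.comp_apply, MonoidHom.comp_apply,
      show chi E (isoInc ((minusCoord j Dt.aniso).refl x hx)) = Multiplicative.ofAdd 1 from
        chi_refl E x hx]
    rw [signHom_one]
    have h2 : P.theta (P.refl _ hX * P.refl _ hX₁) = 1 := (P.theta_refl_mul hodd hX hX₁).2 (by
      rw [hypW_spec, hypW_spec, Dt.incV_minus, Dt.incV_minus, ← map_mul]
      exact Dt.isSquare_rational hodd _)
    rw [map_mul] at h2
    rw [eq_inv_of_mul_eq_one_left h2, Int.units_inv_eq_self]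
  have := DFunLike.congr_fun key o
  rw [MonoidHom.comp_apply, MonoidHom.comp_apply, MonoidHom.comp_apply, ho, map_one] at this
  exact this

set_option maxHeartbeats 4000000 in
/-- Every rational element of the kernel is a scalar times an isometry of sign one or minus one. -/
theorem GFData.psi_decomp (hodd : Odd (Nat.card F)) {K : Type v} [Field K] [Algebra F₀ K]
    {ω' : K} (E : QExt Dt.a₀ Dt.b₀ ω') (g : ↥(GOm j Dt.a₀ Dt.b₀)) (hg : chi E g = 1) :
    ∃ (t : Fˣ) (s : ↥(Cfsg.isometryGroup F (Cfsg.quadFormPlus (j + 1 + 3) F))),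
      Dt.psi g = (plusCoord (F := F) (j + 1)).scal t * isoIncP s ∧
      pchi (j + 1) F (isoIncP s) = 1 ∧
      (Odd (j + 4) ∧ Nat.card F₀ % 4 = 1 → (plusCoord (F := F) (j + 1)).theta s = 1) := by
  set P := plusCoord (F := F) (j + 1) with hP
  obtain ⟨c, y, hy, o, rfl⟩ := exists_scale_decomp Dt.aniso g
  rw [map_mul, chi_scale, one_mul] at hg
  obtain ⟨t₀, ht₀⟩ := exists_units_sq (c := Units.map Dt.e.toMonoidHom c)
    (Dt.isSquare_rational hodd _)
  refine ⟨t₀, plusTorus (j + 1 + 3) (fun _ => t₀) *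
    plusTorus (j + 1 + 3) (Pi.mulSingle 0 (Units.mk0 _ (Dt.unit_ne c y hy))⁻¹) * Dt.psiIso o,
    ?_, ?_, ?_⟩
  · rw [map_mul Dt.psi, Dt.psi_scale_torus c y hy t₀ ht₀, map_mul isoIncP, map_mul isoIncP,
      Dt.isoIncP_psiIso]
    simp only [mul_assoc, hP]
  · rw [map_mul isoIncP, map_mul isoIncP, map_mul, map_mul, pchi_plusTorus, pchi_plusTorus,
      one_mul, one_mul, Dt.isoIncP_psiIso]
    exact (DFunLike.congr_fun (Dt.pchi_psi E) _).trans hg
  · rintro ⟨hm, hq⟩
    rw [map_mul P.theta, map_mul P.theta, Dt.theta_psiIso hodd E o hg, mul_one]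
    have hu : IsSquare (Dt.unit y) ↔ IsSquare (c : F₀) :=
      Dt.isSquare_iff_norm hodd _ _ c.ne_zero (by rw [Dt.unit_norm, hy])
    haveI := Fintype.ofFinite F₀
    have hneg : IsSquare (-1 : F₀) := FiniteField.isSquare_neg_one_iff.2 (by
      rw [← Nat.card_eq_fintype_card]; omega)
    have htval : (t₀ : F) * t₀ = Dt.e (c : F₀) := congrArg Units.val ht₀
    have ht : IsSquare (t₀ : F) ↔ IsSquare (c : F₀) := by
      rcases mul_self_eq_mul_self_iff.1 (show Dt.σ (t₀ : F) * Dt.σ t₀ = (t₀ : F) * t₀ by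
        rw [← map_mul, htval, Dt.fix]) with h | h
      · exact Dt.isSquare_iff_norm hodd _ _ c.ne_zero (by rw [h, htval])
      · refine (Dt.isSquare_iff_norm hodd _ (-(c : F₀)) (neg_ne_zero.2 c.ne_zero)
          (by rw [h, mul_neg, htval, map_neg])).trans ⟨fun h' => ?_, fun h' => ?_⟩
        · simpa using hneg.mul h'
        · simpa using hneg.mul h'
    by_cases hc : IsSquare (c : F₀)
    · rw [theta_const_sq (ht.2 hc), theta_single_sq _ (isSquare_inv_units.2 (hu.2 hc)), one_mul]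
    · rw [Classical.theta_plusTorus (j + 1) hodd t₀ (fun h => hc (ht.1 h)),
        Classical.theta_plusTorus_single (j + 1) hodd 0 _
          (fun h => hc (hu.1 (isSquare_inv_units.1 h))), Odd.neg_one_pow (show Odd (j + 1 + 3) from hm)]
      rfl

set_option maxHeartbeats 4000000 in
/-- In the remaining cases some rational element is not inner. -/
theorem GFData.exists_outer (hodd : Odd (Nat.card F)) {K : Type v} [Field K] [Algebra F₀ K]
    {ω' : K} (E : QExt Dt.a₀ Dt.b₀ ω') (h : ¬ (Odd (j + 4) ∧ Nat.card F₀ % 4 = 1)) :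
    ∃ g : ↥(GOm j Dt.a₀ Dt.b₀), chi E g = 1 ∧
      simAut (Dt.psi g) ∉ Cfsg.Inn (Cfsg.POmega F (Cfsg.quadFormPlus (j + 1 + 3) F)) := by
  set P := plusCoord (F := F) (j + 1) with hP
  obtain ⟨c, hc⟩ := exists_nonsquare_odd (Dt.odd_base hodd)
  obtain ⟨y, hy⟩ := exists_minus_norm Dt.aniso c
  obtain ⟨t, ht⟩ := exists_units_sq (c := Units.map Dt.e.toMonoidHom c)
    (Dt.isSquare_rational hodd _)
  refine ⟨_, chi_scale E c y hy, ?_⟩
  rw [Dt.psi_scale_torus c y hy t ht, mul_assoc, simAut_mulP, P.simAut_scal, one_mul, ← map_mul,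
    Dt.inner_iff hodd _ (by rw [map_mul, map_mul, pchi_plusTorus, pchi_plusTorus, one_mul]),
    map_mul P.theta]
  have hu : ¬ IsSquare (Dt.unit y) := fun h' =>
    hc ((Dt.isSquare_iff_norm hodd _ _ c.ne_zero (by rw [Dt.unit_norm, hy])).1 h')
  rw [Classical.theta_plusTorus_single (j + 1) hodd 0 _
    (fun h' => hu (isSquare_inv_units.1 h'))]
  have hconst : P.theta (plusTorus (j + 1 + 3) fun _ => t) = 1 := by
    by_cases hts : IsSquare (t : F)
    · exact theta_const_sq hts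
    · rw [Classical.theta_plusTorus (j + 1) hodd t hts]
      refine Even.neg_one_pow (Nat.not_odd_iff_even.1 fun hm => h ⟨hm, ?_⟩)
      by_contra hq
      haveI := Fintype.ofFinite F₀
      have hneg : ¬ IsSquare (-1 : F₀) := by
        rw [FiniteField.isSquare_neg_one_iff, ← Nat.card_eq_fintype_card]
        obtain ⟨i, hi⟩ := Dt.odd_base hodd
        omega
      have htval : (t : F) * t = Dt.e (c : F₀) := congrArg Units.val ht
      rcases mul_self_eq_mul_self_iff.1 (show Dt.σ (t : F) * Dt.σ t = (t : F) * t by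
        rw [← map_mul, htval, Dt.fix]) with h' | h'
      · obtain ⟨r, hr⟩ := (Dt.he (t : F)).1 h'
        exact hc ⟨r, Dt.e.injective (by rw [map_mul, hr, htval])⟩
      · refine hts ((Dt.isSquare_iff_norm hodd _ (-(c : F₀)) (neg_ne_zero.2 c.ne_zero)
          (by rw [h', mul_neg, htval, map_neg])).2 ?_)
        have := nonsquare_mul_nonsquare hneg hc
        rwa [neg_one_mul] at this
  rw [hconst]
  decide

set_option maxHeartbeats 4000000 in
/-- The number of classes. -/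
theorem GFData.split_count (hk : 2 ≤ j + 1) :
    (CharP F 2 → Cfsg.splitClassCount (Cfsg.inndiagPOmegaPlus (j + 1 + 3) F)
      (Cfsg.Inn (Cfsg.POmega F (Cfsg.quadFormPlus (j + 1 + 3) F))) (Dt.tau j) = 1) ∧
    (Odd (Nat.card F) → Cfsg.splitClassCount (Cfsg.inndiagPOmegaPlus (j + 1 + 3) F)
      (Cfsg.Inn (Cfsg.POmega F (Cfsg.quadFormPlus (j + 1 + 3) F))) (Dt.tau j) =
        if Odd (j + 4) ∧ Nat.card F₀ % 4 = 1 then 4 else 2) := by
  set PP := (pchi (j + 1) F).ker with hPP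
  let Φ : ↥PP →* MulAut (Cfsg.POmega F (Cfsg.quadFormPlus (j + 1 + 3) F)) :=
    simAut.comp PP.subtype
  have hrange : Φ.range = Cfsg.inndiagPOmegaPlus (j + 1 + 3) F := by
    rw [inndiagPlus_eq, MonoidHom.range_comp, Subgroup.range_subtype]
  haveI : (Cfsg.Inn (Cfsg.POmega F (Cfsg.quadFormPlus (j + 1 + 3) F))).Normal :=
    AutPSL.inn_normal _
  set N := (Cfsg.Inn (Cfsg.POmega F (Cfsg.quadFormPlus (j + 1 + 3) F))).comap Φ with hN
  have hNmap : N.map Φ = Cfsg.Inn (Cfsg.POmega F (Cfsg.quadFormPlus (j + 1 + 3) F)) :=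
    Subgroup.map_comap_eq_self (hrange ▸ inn_le_inndiagPlus)
  let C : Subgroup ↥PP :=
    (Subgroup.centralizer {Dt.tau j}).comap Φ
  have hC : ∀ g, g ∈ C ↔ Φ g * Dt.tau j = Dt.tau j * Φ g := fun g =>
    Subgroup.mem_centralizer_singleton_iff
  have hcount : Cfsg.splitClassCount (Cfsg.inndiagPOmegaPlus (j + 1 + 3) F)
      (Cfsg.Inn (Cfsg.POmega F (Cfsg.quadFormPlus (j + 1 + 3) F))) (Dt.tau j) = (N ⊔ C).index := by
    rw [← hrange, ← hNmap]
    exact AutPSL.splitClassCount_eq_index Φ _ N C hC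
  refine ⟨fun h2 => ?_, fun hodd => ?_⟩
  · haveI := h2
    rw [hcount, Subgroup.index_eq_one, eq_top_iff]
    refine le_trans (fun g _ => ?_) le_sup_left
    show Φ g ∈ Cfsg.Inn (Cfsg.POmega F (Cfsg.quadFormPlus (j + 1 + 3) F))
    rw [← inndiagPlus_eq_inn_char_two, ← hrange]
    exact ⟨g, rfl⟩
  obtain ⟨K₀, _, _, ω₀, E₀⟩ := Dt.exists_qext'
  set P := plusCoord (F := F) (j + 1) with hP
  have hn := Classical.card_plus (j + 1)
  obtain ⟨S₁⟩ := Classical.nonempty_genSim_plus (j + 1) hodd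
  have hker : PP = (P.dsign (j + 1 + 3)).ker := ker_pchi_eq_dsign hodd
  have hN4 : N.index = 4 := by
    obtain ⟨R, Z, hdata⟩ := P.quotient_data hodd hn (Dt.theta_negI hodd) S₁
    have h4 := hdata.2.1
    rw [← hker] at h4
    exact h4
  let Sq : Subgroup ↥PP := ((P.muClass hodd).comp PP.subtype).ker
  have hSq : Sq.index = 2 := by
    rw [Subgroup.index_ker, MonoidHom.range_eq_top.2, Subgroup.card_top]
    · simp
    · intro z
      have hz : z = 1 ∨ z = Multiplicative.ofAdd 1 := by revert z; decide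
      rcases hz with rfl | rfl
      · exact ⟨1, map_one _⟩
      · exact ⟨⟨S₁.s, hker ▸ S₁.hs1⟩, P.muClass_of_nonsquare hodd S₁.hs2⟩
  have hNSq : N ≤ Sq := fun g hg => by
    show P.muClass hodd g.1 = 1
    rw [P.muClass_eq_one]
    exact ((P.mem_P0_iff hn g.1).1 (P.inn_le_pso hodd hn hg)).1
  have hpsi : ∀ g₀ : ↥(GOm j Dt.a₀ Dt.b₀), pchi (j + 1) F (Dt.psi g₀) = chi E₀ g₀ := fun g₀ =>
    DFunLike.congr_fun (Dt.pchi_psi E₀) g₀
  have hCdata : ∀ g ∈ C, ∃ (c : Fˣ) (g₀ : ↥(GOm j Dt.a₀ Dt.b₀)),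
      chi E₀ g₀ = 1 ∧ (g : ↥(GOp (j + 1) F)) = P.scal c * Dt.psi g₀ := by
    intro g hg
    obtain ⟨c, g₀, hg₀⟩ := (Dt.commute_iff hk g.1).1 ((hC g).1 hg)
    have hg1 : pchi (j + 1) F g.1 = 1 := g.2
    rw [hg₀, map_mul, pchi_scalar _ (P.scal_mem c), one_mul, hpsi] at hg1
    exact ⟨c, g₀, hg1, hg₀⟩
  have hCSq : C ≤ Sq := fun g hg => by
    obtain ⟨c, g₀, hg₀, e⟩ := hCdata g hg
    obtain ⟨t, s, es, -, -⟩ := Dt.psi_decomp hodd E₀ g₀ hg₀
    show P.muClass hodd g.1 = 1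
    rw [P.muClass_eq_one, e, es, map_mul, map_mul, P.mu_scal, P.mu_scal,
      show P.mu (isoIncP s) = 1 from P.mu_inc s, mul_one]
    exact ⟨c * t, mul_mul_mul_comm c c t t⟩
  rw [hcount]
  split_ifs with h
  · rw [sup_eq_left.2, hN4]
    intro g hg
    obtain ⟨c, g₀, hg₀, e⟩ := hCdata g hg
    obtain ⟨t, s, es, hs, hθ⟩ := Dt.psi_decomp hodd E₀ g₀ hg₀
    show simAut g.1 ∈ Cfsg.Inn (Cfsg.POmega F (Cfsg.quadFormPlus (j + 1 + 3) F))
    rw [e, es, simAut_mulP, simAut_mulP, P.simAut_scal, P.simAut_scal, one_mul, one_mul,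
      Dt.inner_iff hodd s hs]
    exact hθ h
  · obtain ⟨g₀, hg₀, hout⟩ := Dt.exists_outer hodd E₀ h
    let g : ↥PP := ⟨Dt.psi g₀, (hpsi g₀).trans hg₀⟩
    have h1' : (plusCoord (F := F) (j + 1)).scal (1 : Fˣ) = 1 := Subtype.ext (map_one _)
    have hcm : Commute (simAut (Dt.psi g₀)) (Dt.tau j) :=
      (Dt.commute_iff hk (Dt.psi g₀)).2 ⟨1, g₀, by rw [h1', one_mul]⟩
    have hgC : g ∈ C := (hC g).2 hcm.eq
    have hne : N.relIndex (N ⊔ C) ≠ 1 := fun h1 => by
      have h2 : g ∈ N := (Subgroup.relIndex_eq_one.1 h1) (Subgroup.mem_sup_right hgC)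
      exact hout h2
    have e1 := Subgroup.relIndex_mul_index (le_sup_left : N ≤ N ⊔ C)
    have e2 := Subgroup.relIndex_mul_index (sup_le hNSq hCSq)
    rw [hN4] at e1
    rw [hSq] at e2
    generalize N.relIndex (N ⊔ C) = r at e1 hne
    generalize (N ⊔ C).relIndex Sq = s at e2
    generalize (N ⊔ C).index = i at e1 e2 ⊢
    subst e2
    have hr : r ≠ 0 := fun h0 => by simp [h0] at e1
    have hs0 : s ≠ 0 := fun h0 => by simp [h0] at e1
    have hr2 : 2 ≤ r := by omega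
    nlinarith [Nat.pos_of_ne_zero hs0]

end Cfsg.Agent.OutPO
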