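import Mathlib
import Cfsg.Agent.OutPO.PlusGraphSplit

/-!
Involutory graph-field automorphisms of `PΩ⁺_{2m}(F)`.
-/

set_option autoImplicit false
set_option linter.unusedSectionVars false
set_option maxHeartbeats 1000000
set_option synthInstance.maxHeartbeats 400000

namespace Cfsg.Agent.OutPO

open Cfsg.Agent.AutPSL (fixedField)
open Cfsg.Agent.Classical (simAut)

universe u v

variable {F : Type u} [Field F] [Finite F]

/-- A finite field has at most one involutory automorphism. -/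
theorem involution_unique {σ τ : F ≃+* F} (hσ : orderOf σ = 2) (hτ : orderOf τ = 2) : σ = τ := by
  have hq : Nat.card ↥(fixedField σ) = Nat.card ↥(fixedField τ) := by
    have h1 := AutPSL.card_fixedField_pow σ
    have h2 := AutPSL.card_fixedField_pow τ
    rw [hσ] at h1
    rw [hτ, h1] at h2
    exact Nat.pow_left_injective two_ne_zero h2
  exact RingEquiv.ext fun a => by
    rw [AutPSL.involution_apply σ hσ rfl a, AutPSL.involution_apply τ hτ hq.symm a]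

set_option maxHeartbeats 4000000 in
theorem conj_to_tau {j : ℕ} (hk : 2 ≤ j + 1) {σ : F ≃+* F} (hσ : orderOf σ = 2)
    {x : MulAut (Cfsg.POmega F (Cfsg.quadFormPlus (j + 1 + 3) F))}
    (hx : Cfsg.IsGraphFieldAutClassPOmegaPlus (j + 1 + 3) x) (hx2 : orderOf x = 2) :
    ∃ M : ↥(GOp (j + 1) F), pchi (j + 1) F M = 1 ∧
      x = simAut M * (simAut (swapP (j + 1) F) * phiP (j + 1) F σ) * (simAut M)⁻¹ := by
  obtain ⟨d, τ, hτ, rfl, hd⟩ := form_of_graphField hk hx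
  have hpow : (simAut d * phiP (j + 1) F τ) ^ 2 = 1 := hx2 ▸ pow_orderOf_eq_one _
  have hτ2 := orderOf_field_of_pow hk Nat.prime_two hτ hpow
  obtain rfl := involution_unique hτ2 hσ
  obtain ⟨M, hM, e⟩ := conj_to_rep hk Nat.prime_two hτ2 d hpow
  refine ⟨M, hM, ?_⟩
  rw [hd, repP, if_neg (by decide)] at e
  exact e

set_option maxHeartbeats 4000000 in
theorem graphField_plus {j p f : ℕ} [Fact p.Prime] (hk : 2 ≤ j + 1) (hF : Nat.card F = p ^ f)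
    (x : MulAut (Cfsg.POmega F (Cfsg.quadFormPlus (j + 1 + 3) F)))
    (hx : Cfsg.IsGraphFieldAutClassPOmegaPlus (j + 1 + 3) x) (hx2 : orderOf x = 2)
    (F₀ : Type v) [Field F₀] [Finite F₀] (hF₀ : Nat.card F₀ = p ^ (f / 2)) :
    Even f ∧
    (∀ y, Cfsg.IsGraphFieldAutClassPOmegaPlus (j + 1 + 3) y → orderOf y = 2 →
      Cfsg.IsConjUnder (Cfsg.inndiagPOmegaPlus (j + 1 + 3) F) x y) ∧
    (∃ a₀ b₀ : F₀, (∀ z₁ z₂ : F₀, z₁ ^ 2 + a₀ * z₁ * z₂ + b₀ * z₂ ^ 2 = 0 → z₁ = 0 ∧ z₂ = 0) ∧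
      Nonempty (↥(Cfsg.inndiagPOmegaPlus (j + 1 + 3) F ⊓ Subgroup.centralizer {x}) ≃*
        ↥(Cfsg.inndiagPOmegaMinus (j + 3) F₀ a₀ b₀))) ∧
    (p = 2 → Cfsg.splitClassCount (Cfsg.inndiagPOmegaPlus (j + 1 + 3) F)
      (Cfsg.Inn (Cfsg.POmega F (Cfsg.quadFormPlus (j + 1 + 3) F))) x = 1) ∧
    (p ≠ 2 → Cfsg.splitClassCount (Cfsg.inndiagPOmegaPlus (j + 1 + 3) F)
      (Cfsg.Inn (Cfsg.POmega F (Cfsg.quadFormPlus (j + 1 + 3) F))) x =
        if Odd (j + 4) ∧ p ^ (f / 2) % 4 = 1 then 4 else 2) := by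
  obtain ⟨d, σ, hσ1, hxd, -⟩ := form_of_graphField hk hx
  have hσ : orderOf σ = 2 :=
    orderOf_field_of_pow hk Nat.prime_two hσ1 (hxd ▸ hx2 ▸ pow_orderOf_eq_one x)
  obtain ⟨hdvd, hfix⟩ := AutPSL.fixedField_exponent σ hF hσ
  obtain ⟨e, he⟩ := AutPSL.exists_embedding σ F₀ (hF₀.trans hfix.symm)
  obtain ⟨Dt, hDt⟩ := exists_gfData hσ e he
  obtain ⟨M, hM, hxM⟩ := conj_to_tau hk hσ hx hx2
  have hxtau : x = simAut M * Dt.tau j * (simAut M)⁻¹ := by rw [GFData.tau, hDt]; exact hxM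
  have hMmem : simAut M ∈ Cfsg.inndiagPOmegaPlus (j + 1 + 3) F := by
    rw [inndiagPlus_eq]; exact Subgroup.mem_map_of_mem _ hM
  haveI := inndiagPlus_normal (F := F) hk
  haveI : (Cfsg.Inn (Cfsg.POmega F (Cfsg.quadFormPlus (j + 1 + 3) F))).Normal :=
    AutPSL.inn_normal _
  have hcount : Cfsg.splitClassCount (Cfsg.inndiagPOmegaPlus (j + 1 + 3) F)
      (Cfsg.Inn (Cfsg.POmega F (Cfsg.quadFormPlus (j + 1 + 3) F))) x =
      Cfsg.splitClassCount (Cfsg.inndiagPOmegaPlus (j + 1 + 3) F)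
      (Cfsg.Inn (Cfsg.POmega F (Cfsg.quadFormPlus (j + 1 + 3) F))) (Dt.tau j) := by
    rw [hxtau]
    exact AutPSL.splitClassCount_conj _ _ (simAut M) (Dt.tau j)
  obtain ⟨h2, hodd⟩ := Dt.split_count (j := j) hk
  refine ⟨even_iff_two_dvd.2 hdvd, fun y hy hy2 => ?_, ⟨Dt.a₀, Dt.b₀, fun z₁ z₂ h => ?_, ?_⟩, ?_, ?_⟩
  · obtain ⟨N, hN, e'⟩ := conj_to_tau hk hσ hy hy2
    refine ⟨simAut N * (simAut M)⁻¹, mul_mem ?_ (inv_mem hMmem), ?_⟩
    · rw [inndiagPlus_eq]; exact Subgroup.mem_map_of_mem _ hN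
    · rw [e', hxM]; group
  · have h0 := Dt.aniso ![z₁, z₂] (by rw [Classical.binQF_apply]; simpa using h)
    exact ⟨congrFun h0 0, congrFun h0 1⟩
  · obtain ⟨i⟩ := Dt.centralizer_iso (j := j) hk
    rw [hxtau]
    exact ⟨(AutPSL.centEquiv (Cfsg.inndiagPOmegaPlus (j + 1 + 3) F) (simAut M) (Dt.tau j)).symm.trans i⟩
  · intro hp
    subst hp
    rw [hcount]
    refine h2 ?_
    haveI := Fintype.ofFinite F
    obtain ⟨q, hq⟩ := CharP.exists F
    obtain ⟨n, hqp, hn⟩ := FiniteField.card F q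
    rw [← Nat.card_eq_fintype_card, hF] at hn
    have hdiv : q ∣ 2 ^ f := hn ▸ dvd_pow_self q n.ne_zero
    rw [(Nat.prime_dvd_prime_iff_eq hqp Nat.prime_two).1 (hqp.dvd_of_dvd_pow hdiv)] at hq
    exact hq
  · intro hp
    rw [hcount, hodd (by rw [hF]; exact ((Fact.out : p.Prime).odd_of_ne_two hp).pow), hF₀]

end Cfsg.Agent.OutPO
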